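import Mathlib
import Cfsg.Agent.Lib.Helper11.Sharp

set_option autoImplicit false

namespace Cfsg.Agent.Lib.Helper11

open MulAction

/-- The natural injection of `N ∩ H` (as a subgroup of `H`) into `N`. -/
def subgroupOfHom {G : Type*} [Group G] (N H : Subgroup G) : N.subgroupOf H →* N where
  toFun x := ⟨((x : H) : G), Subgroup.mem_subgroupOf.mp x.2⟩
  map_one' := rfl
  map_mul' _ _ := rfl

theorem subgroupOfHom_injective {G : Type*} [Group G] (N H : Subgroup G) :
    Function.Injective (subgroupOfHom N H) := by
  intro x y hxy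
  apply Subtype.ext
  apply Subtype.ext
  exact congrArg (fun z : N => (z : G)) hxy

theorem card_subgroupOf_dvd {G : Type*} [Group G] (N H : Subgroup G) :
    Nat.card (N.subgroupOf H) ∣ Nat.card N :=
  Subgroup.card_dvd_of_injective _ (subgroupOfHom_injective N H)

/-- In a primitive faithful action, a nontrivial normal subgroup is transitive. -/
theorem pretransitive_of_normal_ne_bot {G α : Type*} [Group G] [MulAction G α]
    [IsPreprimitive G α] (hfaith : ∀ g : G, (∀ a : α, g • a = a) → g = 1)
    (N : Subgroup G) [N.Normal] (hN : N ≠ ⊥) : IsPretransitive N α := by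
  apply IsQuasiPreprimitive.isPretransitive_of_normal (G := G)
  intro hfix
  apply hN
  rw [eq_bot_iff]
  intro n hn
  rw [Subgroup.mem_bot]
  apply hfaith
  intro a
  have : a ∈ fixedPoints N α := by rw [hfix]; trivial
  exact this ⟨n, hn⟩

/-- A sharply 4-transitive group on 11 points is simple of order 7920. -/
theorem simple_of_sharp4_11 {G α : Type*} [Group G] [MulAction G α] [Finite α]
    [IsMultiplyPretransitive G α 4] (hs : ∀ x : Fin 4 ↪ α, stabilizer G x = ⊥)
    (hα : Nat.card α = 11) : IsSimpleGroup G ∧ Nat.card G = 7920 := by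
  have hfin : Finite G := finite_of_sharp hs (by omega)
  have hcard : Nat.card G = 7920 := by
    rw [card_of_sharp hs (by omega), hα]
    decide
  have hfaith : ∀ g : G, (∀ a : α, g • a = a) → g = 1 :=
    fun g hg => eq_one_of_forall_smul hs (by omega) g hg
  have hfact : Fact (Nat.Prime 11) := ⟨by norm_num⟩
  have h11 : 11 ∣ Nat.card G := by rw [hcard]; norm_num
  have h121 : ¬ 11 ^ 2 ∣ Nat.card G := by rw [hcard]; norm_num
  have hN55 : ∀ P : Sylow 11 G,
      Nat.card (Subgroup.normalizer ((P : Subgroup G) : Set G)) = 55 := by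
    intro P
    obtain ⟨d, hd, hN⟩ := card_normalizer_sylow_prime_degree hα hfaith h11 h121 P
    have h1 : Nat.card (Sylow 11 G) = (Subgroup.normalizer ((P : Subgroup G) : Set G)).index :=
      P.card_eq_index_normalizer
    have h2 := card_sylow_modEq_one 11 G
    have h3 := Subgroup.card_mul_index (Subgroup.normalizer ((P : Subgroup G) : Set G))
    rw [hN, ← h1, hcard] at h3
    have hd10 : d ≤ 10 := Nat.le_of_dvd (by norm_num) hd
    obtain ⟨e, he⟩ := hd
    unfold Nat.ModEq at h2
    rw [hN]
    generalize Nat.card (Sylow 11 G) = n at h2 h3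
    interval_cases d <;> omega
  have hnt : Nontrivial G := by
    apply Finite.one_lt_card_iff_nontrivial.mp
    rw [hcard]; norm_num
  refine ⟨⟨fun N hN => ?_⟩, hcard⟩
  by_contra hcon
  push Not at hcon
  obtain ⟨hNbot, hNtop⟩ := hcon
  have h2 : IsMultiplyPretransitive G α 2 :=
    isMultiplyPretransitive_of_le (n := 4) (by omega) (by omega)
  have hprim : IsPreprimitive G α := isPreprimitive_of_is_two_pretransitive h2
  have hNtrans : IsPretransitive N α := pretransitive_of_normal_ne_bot hfaith N hNbot
  have hne : Nonempty α := (Nat.card_pos_iff.mp (by omega)).1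
  obtain ⟨a⟩ := hne
  have hNa := index_stabilizer_of_transitive N a
  have hNcard := Subgroup.card_mul_index (stabilizer N a)
  rw [hNa, hα] at hNcard
  have h11N : 11 ∣ Nat.card N := by rw [← hNcard]; exact dvd_mul_left _ _
  obtain ⟨x, hx⟩ := exists_prime_orderOf_dvd_card' 11 h11N
  have hZcard : Nat.card (Subgroup.zpowers (x : G)) = 11 := by
    rw [Nat.card_zpowers, Subgroup.orderOf_coe, hx]
  have hZ : IsPGroup 11 (Subgroup.zpowers (x : G)) :=
    IsPGroup.of_card (n := 1) (by rw [hZcard, pow_one])
  obtain ⟨P, hZP⟩ := hZ.exists_le_sylow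
  have hPcard : Nat.card P = 11 := card_sylow_of_prime_exact h11 h121 P
  have hZeq : Subgroup.zpowers (x : G) = (P : Subgroup G) :=
    Subgroup.eq_of_le_of_card_ge hZP (by rw [hZcard]; exact hPcard.le)
  have hPN : (P : Subgroup G) ≤ N := by
    rw [← hZeq, Subgroup.zpowers_le]
    exact x.2
  have hfr : Subgroup.normalizer ((P : Subgroup G) : Set G) ⊔ N = ⊤ :=
    Sylow.normalizer_sup_eq_top' P hPN
  have hidx : N.index ∣ 55 := by
    have h := Subgroup.relIndex_dvd_card N (Subgroup.normalizer ((P : Subgroup G) : Set G))
    rw [hN55 P] at h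
    have h' : N.relIndex (Subgroup.normalizer ((P : Subgroup G) : Set G) ⊔ N) =
        N.relIndex (Subgroup.normalizer ((P : Subgroup G) : Set G)) :=
      Subgroup.relIndex_sup_right _ _
    rw [← h', hfr, Subgroup.relIndex_top_right] at h
    exact h
  have hci := Subgroup.card_mul_index N
  rw [hcard] at hci
  have hidx' : N.index = 1 ∨ N.index = 5 := by
    have hle : N.index ≤ 55 := Nat.le_of_dvd (by norm_num) hidx
    obtain ⟨e, he⟩ := hidx
    generalize N.index = i at hci hle he ⊢
    generalize Nat.card N = c at hci hNcard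
    generalize Nat.card (stabilizer N a) = s at hNcard
    interval_cases i <;> omega
  rcases hidx' with h1 | h5
  · exact hNtop (Subgroup.index_eq_one.mp h1)
  · -- index 5: the point stabiliser in N is a nontrivial normal subgroup of the stabiliser
    rw [h5] at hci
    have hsc : Nat.card (stabilizer N a) = 144 := by omega
    have hnt' : Nontrivial (stabilizer N a) := by
      apply Finite.one_lt_card_iff_nontrivial.mp
      rw [hsc]; norm_num
    obtain ⟨y, hy⟩ := exists_ne (1 : stabilizer N a)
    have hya : ((y : N) : G) • a = a := y.2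
    have hy1 : ((y : N) : G) ≠ 1 := by
      intro h
      apply hy
      apply Subtype.ext
      apply Subtype.ext
      exact h
    have hpre3 := pretransitive_ofStabilizer (G := G) (k := 3) (by omega) a
    have hs3 := sharp_ofStabilizer hs a
    have hcardS := SubMulAction.nat_card_ofStabilizer_add_one_eq G a
    have hpre2 : IsMultiplyPretransitive (stabilizer G a) (SubMulAction.ofStabilizer G a) 2 :=
      isMultiplyPretransitive_of_le (n := 3) (by omega) (by omega)
    have hprimS : IsPreprimitive (stabilizer G a) (SubMulAction.ofStabilizer G a) :=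
      isPreprimitive_of_is_two_pretransitive hpre2
    have hfaithS : ∀ g : stabilizer G a,
        (∀ b : SubMulAction.ofStabilizer G a, g • b = b) → g = 1 :=
      fun g hg => eq_one_of_forall_smul hs3 (by omega) g hg
    have hNaN : (N.subgroupOf (stabilizer G a)).Normal := hN.subgroupOf _
    have hNabot : N.subgroupOf (stabilizer G a) ≠ ⊥ := by
      intro h
      have hmem : (⟨((y : N) : G), hya⟩ : stabilizer G a) ∈ N.subgroupOf (stabilizer G a) := by
        rw [Subgroup.mem_subgroupOf]
        exact (y : N).2
      rw [h, Subgroup.mem_bot] at hmem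
      exact hy1 (congrArg Subtype.val hmem)
    have hNatrans : IsPretransitive (N.subgroupOf (stabilizer G a))
        (SubMulAction.ofStabilizer G a) :=
      pretransitive_of_normal_ne_bot hfaithS _ hNabot
    have hneS : Nonempty (SubMulAction.ofStabilizer G a) := (Nat.card_pos_iff.mp (by omega)).1
    obtain ⟨b⟩ := hneS
    have h10 := index_stabilizer_of_transitive (N.subgroupOf (stabilizer G a)) b
    have h10' : 10 ∣ Nat.card (N.subgroupOf (stabilizer G a)) := by
      have := Subgroup.index_dvd_card (stabilizer (N.subgroupOf (stabilizer G a)) b)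
      rw [h10] at this
      have h10c : Nat.card (SubMulAction.ofStabilizer G a) = 10 := by omega
      rw [h10c] at this
      exact this
    have hdvd := h10'.trans (card_subgroupOf_dvd N (stabilizer G a))
    have hNc : Nat.card N = 1584 := by omega
    rw [hNc] at hdvd
    omega

/-- A sharply 5-transitive group on 12 points is simple of order 95040. -/
theorem simple_of_sharp5_12 {G α : Type*} [Group G] [MulAction G α] [Finite α]
    [IsMultiplyPretransitive G α 5] (hs : ∀ x : Fin 5 ↪ α, stabilizer G x = ⊥)
    (hα : Nat.card α = 12) : IsSimpleGroup G ∧ Nat.card G = 95040 := by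
  have hfin : Finite G := finite_of_sharp hs (by omega)
  have hcard : Nat.card G = 95040 := by
    rw [card_of_sharp hs (by omega), hα]
    decide
  have hfaith : ∀ g : G, (∀ a : α, g • a = a) → g = 1 :=
    fun g hg => eq_one_of_forall_smul hs (by omega) g hg
  have hnt : Nontrivial G := by
    apply Finite.one_lt_card_iff_nontrivial.mp
    rw [hcard]; norm_num
  refine ⟨⟨fun N hN => ?_⟩, hcard⟩
  by_contra hcon
  push Not at hcon
  obtain ⟨hNbot, hNtop⟩ := hcon
  have h2 : IsMultiplyPretransitive G α 2 :=
    isMultiplyPretransitive_of_le (n := 5) (by omega) (by omega)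
  have hprim : IsPreprimitive G α := isPreprimitive_of_is_two_pretransitive h2
  have hNtrans : IsPretransitive N α := pretransitive_of_normal_ne_bot hfaith N hNbot
  have hne : Nonempty α := (Nat.card_pos_iff.mp (by omega)).1
  obtain ⟨a⟩ := hne
  have hpre4 := pretransitive_ofStabilizer (G := G) (k := 4) (by omega) a
  have hs4 := sharp_ofStabilizer hs a
  have hcardS := SubMulAction.nat_card_ofStabilizer_add_one_eq G a
  have hsimple := (simple_of_sharp4_11 hs4 (by omega)).1
  have hNaN : (N.subgroupOf (stabilizer G a)).Normal := hN.subgroupOf _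
  rcases hsimple.eq_bot_or_eq_top_of_normal _ hNaN with hbot | htop
  · -- N meets the stabiliser trivially
    have hfree : ∀ g : G, g ∈ N → g • a = a → g = 1 := by
      intro g hg hga
      have hmem : (⟨g, hga⟩ : stabilizer G a) ∈ N.subgroupOf (stabilizer G a) := by
        rw [Subgroup.mem_subgroupOf]
        exact hg
      rw [hbot, Subgroup.mem_bot] at hmem
      exact congrArg Subtype.val hmem
    have hpre1 : IsPretransitive (stabilizer G a) (SubMulAction.ofStabilizer G a) := by
      rw [← is_one_pretransitive_iff]
      exact isMultiplyPretransitive_of_le (n := 4) (by omega) (by omega)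
    have hconj : ∀ x y : G, x ∈ N → y ∈ N → x ≠ 1 → y ≠ 1 → orderOf x = orderOf y := by
      intro x y hx hy hx1 hy1
      have hxa : x • a ≠ a := fun h => hx1 (hfree x hx h)
      have hya : y • a ≠ a := fun h => hy1 (hfree y hy h)
      obtain ⟨h, hh⟩ := exists_smul_eq (stabilizer G a)
        (⟨x • a, (SubMulAction.mem_ofStabilizer_iff G a).mpr hxa⟩ : SubMulAction.ofStabilizer G a)
        ⟨y • a, (SubMulAction.mem_ofStabilizer_iff G a).mpr hya⟩
      have hh' : (h : G) • (x • a) = y • a := congrArg Subtype.val hh
      have hha : (h : G) • a = a := h.2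
      have hha' : (h : G)⁻¹ • a = a := by
        rw [inv_smul_eq_iff, hha]
      have hfix : (y⁻¹ * ((h : G) * x * (h : G)⁻¹)) • a = a := by
        rw [mul_smul, mul_smul, mul_smul, hha', hh', inv_smul_smul]
      have hmemN : y⁻¹ * ((h : G) * x * (h : G)⁻¹) ∈ N :=
        N.mul_mem (N.inv_mem hy) (hN.conj_mem x hx h)
      have h1 := hfree _ hmemN hfix
      have h2 : (h : G) * x * (h : G)⁻¹ = y := by
        rw [inv_mul_eq_one] at h1
        exact h1.symm
      have h3 : orderOf ((h : G) * x * (h : G)⁻¹) = orderOf x :=
        orderOf_injective (MulAut.conj (h : G)).toMonoidHom (MulAut.conj (h : G)).injective x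
      rw [← h2, h3]
    have h12 : 12 ∣ Nat.card N := by
      have := Subgroup.index_dvd_card (stabilizer N a)
      rw [index_stabilizer_of_transitive N a, hα] at this
      exact this
    have hfact2 : Fact (Nat.Prime 2) := ⟨Nat.prime_two⟩
    have hfact3 : Fact (Nat.Prime 3) := ⟨Nat.prime_three⟩
    obtain ⟨x, hx⟩ := exists_prime_orderOf_dvd_card' 2 (Dvd.dvd.trans (by norm_num) h12)
    obtain ⟨y, hy⟩ := exists_prime_orderOf_dvd_card' 3 (Dvd.dvd.trans (by norm_num) h12)
    have hx' : orderOf (x : G) = 2 := by rw [Subgroup.orderOf_coe, hx]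
    have hy' : orderOf (y : G) = 3 := by rw [Subgroup.orderOf_coe, hy]
    have hx1 : (x : G) ≠ 1 := by
      intro h
      rw [h, orderOf_one] at hx'
      omega
    have hy1 : (y : G) ≠ 1 := by
      intro h
      rw [h, orderOf_one] at hy'
      omega
    have := hconj x y x.2 y.2 hx1 hy1
    omega
  · -- the stabiliser lies in N
    have hHN : stabilizer G a ≤ N := Subgroup.subgroupOf_eq_top.mp htop
    apply hNtop
    rw [eq_top_iff]
    intro g _
    obtain ⟨n, hn⟩ := exists_smul_eq N (g • a) a
    have hn' : ((n : G) * g) • a = a := by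
      rw [mul_smul]; exact hn
    have hmem : (n : G) * g ∈ N := hHN hn'
    have : g = (n : G)⁻¹ * ((n : G) * g) := by group
    rw [this]
    exact N.mul_mem (N.inv_mem n.2) hmem

end Cfsg.Agent.Lib.Helper11
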