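import Mathlib
import Cfsg.Prelude.Def_GeometricClasses
import Cfsg.Prelude.Def_LieClassical
import Cfsg.Agent.Lib.Helper71.Asch5
import Cfsg.Agent.Lib.Helper82.ASB8UNITS
import Cfsg.Agent.Lib.Helper44.BADDefs

/-! Project BAD (helper44; sub-project of helper49's SUG = S5663), piece ENORM (helper11):
a tensor product of two unitary matrices normalises `E`. -/

set_option autoImplicit false

namespace Cfsg.Agent.Lib.Helper44.BAD

open Matrix Cfsg.Geo Cfsg.Agent.Lib.Helper71.Asch
open scoped Kronecker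

variable {n : ℕ} {F : Type*} [Field F] [Fintype F] {q : ℕ}

/-- a subgroup of a finite group that is mapped into itself by conjugation with `g` is normalised
by `g` -/
theorem ENORM_fin {G : Type*} [Group G] [Finite G] (S : Subgroup G) (g : G)
    (h : ∀ x ∈ S, g * x * g⁻¹ ∈ S) : g ∈ Subgroup.normalizer (S : Set G) := by
  classical
  have hinj : Function.Injective (fun x : S => (⟨g * x.1 * g⁻¹, h x.1 x.2⟩ : S)) := by
    intro x y hxy
    have h1 : g * x.1 * g⁻¹ = g * y.1 * g⁻¹ := congrArg Subtype.val hxy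
    apply Subtype.ext
    exact mul_left_cancel (mul_right_cancel h1)
  have hsurj := Finite.injective_iff_surjective.mp hinj
  rw [Subgroup.mem_normalizer_iff]
  intro y
  refine ⟨h y, fun hy => ?_⟩
  obtain ⟨x, hx⟩ := hsurj ⟨g * y * g⁻¹, hy⟩
  have h1 : g * x.1 * g⁻¹ = g * y * g⁻¹ := congrArg Subtype.val hx
  have h2 : x.1 = y := mul_left_cancel (mul_right_cancel h1)
  rw [← h2]
  exact x.2

/-- ENORM: a tensor product of two unitary matrices normalises `E`. -/
theorem ENORM (e : Fin n ≃ Fin 3 × Fin 3) (P : GL (Fin n) F) (E : Subgroup (GL (Fin n) F))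
    (hE : EIs e P E) (hnorm : SNORMp F) (h : GL (Fin n) F) (a b : Matrix (Fin 3) (Fin 3) F)
    (ha : a ∈ bU F 2) (hb : b ∈ bU F 2) (hh : h.1 = tmat e P a b) :
    h ∈ Subgroup.normalizer (E : Set (GL (Fin n) F)) := by
  classical
  haveI : Finite (GL (Fin n) F) := inferInstance
  apply ENORM_fin
  intro x hx
  obtain ⟨a', ha', b', hb', hx'⟩ := (hE x).1 hx
  obtain ⟨a'', ha'', e1⟩ := hnorm a ha a' ha'
  obtain ⟨b'', hb'', e2⟩ := hnorm b hb b' hb'
  refine (hE _).2 ⟨a'', ha'', b'', hb'', ?_⟩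
  have h1 : h.1 * x.1 = tmat e P a'' b'' * h.1 := by
    rw [hh, hx', Cfsg.Agent.Lib.Helper82.ASB8UNITS.tmat_mul,
      Cfsg.Agent.Lib.Helper82.ASB8UNITS.tmat_mul, e1, e2]
  rw [Units.val_mul, Units.val_mul, h1, Matrix.mul_assoc, Units.mul_inv, Matrix.mul_one]

end Cfsg.Agent.Lib.Helper44.BAD
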