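import Mathlib
import Cfsg.Agent.Lib.Helper18.CTDefs

/-! Project CT (S4699, helper18), piece MACK3 (helper11): for a TI Sylow `p`-subgroup `P`, an
element `u ∈ P` with `g⁻¹ u g ∈ N(P)` for some `g ∉ N(P)` is trivial. -/

set_option autoImplicit false

namespace Cfsg.Agent.Lib.Helper18.CT

variable {G : Type*} [Group G] {F : Type*} [Field F] {V : Type*} [AddCommGroup V] [Module F V]

-- piece MACK3
theorem coset_free [Finite G] (p : ℕ) [Fact p.Prime] (P : Sylow p G)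
    (hTI : ∀ Q : Sylow p G, Q ≠ P → (P : Subgroup G) ⊓ (Q : Subgroup G) = ⊥)
    (u : G) (hu : u ∈ (P : Subgroup G)) (g : G)
    (hg : g ∉ Subgroup.normalizer ((P : Subgroup G) : Set G))
    (h : g⁻¹ * u * g ∈ Subgroup.normalizer ((P : Subgroup G) : Set G)) : u = 1 := by
  obtain ⟨k, hk⟩ := P.isPGroup' ⟨u, hu⟩
  have huk : u ^ (p ^ k) = 1 := by
    simpa using congrArg Subtype.val hk
  have hwk : (g⁻¹ * u * g) ^ (p ^ k) = 1 := by
    have e : (g⁻¹ * u * g) ^ (p ^ k) = g⁻¹ * u ^ (p ^ k) * g := by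
      have h1 := conj_pow (a := g⁻¹) (b := u) (i := p ^ k)
      rw [inv_inv] at h1
      exact h1
    rw [e, huk]
    group
  have hZ : IsPGroup p (Subgroup.zpowers (g⁻¹ * u * g)) := by
    rintro ⟨y, hy⟩
    obtain ⟨m, rfl⟩ := Subgroup.mem_zpowers_iff.1 hy
    refine ⟨k, Subtype.ext ?_⟩
    show ((g⁻¹ * u * g) ^ m) ^ (p ^ k) = 1
    rw [← zpow_natCast, ← zpow_mul, mul_comm, zpow_mul, zpow_natCast, hwk, one_zpow]
  have hinf := hZ.inf_normalizer_sylow P
  have hw : g⁻¹ * u * g ∈ (P : Subgroup G) := by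
    have h1 : g⁻¹ * u * g ∈ Subgroup.zpowers (g⁻¹ * u * g) ⊓ (P : Subgroup G) := by
      rw [← hinf]
      exact ⟨Subgroup.mem_zpowers _, h⟩
    exact h1.2
  have hne : g • P ≠ P := by
    intro heq
    exact hg (Sylow.smul_eq_iff_mem_normalizer.1 heq)
  have hu2 : u ∈ ((g • P : Sylow p G) : Subgroup G) := by
    rw [Sylow.coe_subgroup_smul, Subgroup.mem_pointwise_smul_iff_inv_smul_mem]
    have e : (MulAut.conj g)⁻¹ • u = g⁻¹ * u * g := by
      simp [MulAut.smul_def]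
    rw [e]
    exact hw
  have h3 : u ∈ (P : Subgroup G) ⊓ ((g • P : Sylow p G) : Subgroup G) := ⟨hu, hu2⟩
  rw [hTI (g • P) hne, Subgroup.mem_bot] at h3
  exact h3

end Cfsg.Agent.Lib.Helper18.CT
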