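import Mathlib
import Cfsg.Prelude.Def_SporadicB
import Cfsg.Agent.Lib.Helper11.Rank3C

/-!
# Primitive classes of 3-transpositions: the neighbours of a member form one class
-/

set_option autoImplicit false

namespace Cfsg.Agent.Lib.Helper11

open Cfsg

variable {G : Type*} [Group G] {D : Set G}

/-- transitivity on ordered pairs of distinct commuting members -/
theorem tt_pairs [Finite G] (h : TTPrim D) {a b c d : G} (ha : a ∈ D) (hb : b ∈ D)
    (hc : c ∈ D) (hd : d ∈ D) (hab : a ≠ b) (hcd : c ≠ d) (hcab : Commute a b)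
    (hccd : Commute c d) : TTEq2 a b c d := by
  have hD := h.1
  obtain ⟨g₀, hg₀⟩ := tt_exists_conj hD ha hc
  have hg₀' : ttcj g₀ a = c := hg₀
  have h1 : TTEq2 a b c (ttcj g₀ b) := ⟨g₀, hg₀', rfl⟩
  have hb'c : Commute (ttcj g₀ b) c := by
    rw [← hg₀', ttcj_commute_iff]; exact hcab.symm
  have hb'ne : ttcj g₀ b ≠ c := by
    intro heq
    exact hab (ttcj_inj (hg₀'.trans heq.symm))
  exact h1.trans' (tt_D h hc (ttcj_mem hD hb g₀) hd hb'c hccd.symm hb'ne (Ne.symm hcd))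

/-- the non-commuting relation among the neighbours of `x` -/
def ttNR (D : Set G) (x : G) (a b : G) : Prop :=
  (a ∈ D ∧ a ≠ x ∧ Commute x a) ∧ (b ∈ D ∧ b ≠ x ∧ Commute x b) ∧ ¬ Commute a b

/-- connectedness in the non-commuting graph on the neighbours of `x` -/
def ttCn (D : Set G) (x : G) (a b : G) : Prop := Relation.ReflTransGen (ttNR D x) a b

theorem ttCn_refl (x a : G) : ttCn D x a a := Relation.ReflTransGen.refl

theorem ttCn_symm {x a b : G} (h : ttCn D x a b) : ttCn D x b a := by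
  unfold ttCn at h ⊢
  induction h with
  | refl => exact Relation.ReflTransGen.refl
  | tail _ hbc ih =>
    exact Relation.ReflTransGen.head ⟨hbc.2.1, hbc.1, fun hc => hbc.2.2 hc.symm⟩ ih

theorem ttCn_trans {x a b c : G} (h : ttCn D x a b) (h' : ttCn D x b c) : ttCn D x a c :=
  Relation.ReflTransGen.trans h h'

theorem ttCn_mem {x a b : G} (ha : a ∈ D ∧ a ≠ x ∧ Commute x a) (h : ttCn D x a b) :
    b ∈ D ∧ b ≠ x ∧ Commute x b := by
  unfold ttCn at h
  induction h with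
  | refl => exact ha
  | tail _ hbc _ => exact hbc.2.1

theorem ttCn_conj (hD : IsThreeTranspositionClass D) (g : G) {x a b : G} (h : ttCn D x a b) :
    ttCn D (ttcj g x) (ttcj g a) (ttcj g b) := by
  unfold ttCn at h ⊢
  induction h with
  | refl => exact Relation.ReflTransGen.refl
  | tail _ hbc ih =>
    refine Relation.ReflTransGen.tail ih ⟨⟨ttcj_mem hD hbc.1.1 g, ?_, ?_⟩,
      ⟨ttcj_mem hD hbc.2.1.1 g, ?_, ?_⟩, ?_⟩
    · exact fun heq => hbc.1.2.1 (ttcj_inj heq)
    · exact (ttcj_commute_iff g _ _).mpr hbc.1.2.2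
    · exact fun heq => hbc.2.1.2.1 (ttcj_inj heq)
    · exact (ttcj_commute_iff g _ _).mpr hbc.2.1.2.2
    · exact fun hc => hbc.2.2 ((ttcj_commute_iff g _ _).mp hc)

theorem ttCn_of_not_commute {x a b : G} (ha : a ∈ D ∧ a ≠ x ∧ Commute x a)
    (hb : b ∈ D ∧ b ≠ x ∧ Commute x b) (hab : ¬ Commute a b) : ttCn D x a b :=
  Relation.ReflTransGen.single ⟨ha, hb, hab⟩

theorem commute_of_not_ttCn {x a b : G} (ha : a ∈ D ∧ a ≠ x ∧ Commute x a)
    (hb : b ∈ D ∧ b ≠ x ∧ Commute x b) (hab : ¬ ttCn D x a b) : Commute a b := by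
  by_contra hc
  exact hab (ttCn_of_not_commute ha hb hc)

/-- a component of the neighbours of `x` not containing `e` is connected among the
neighbours of `e` -/
theorem ttCn_F2a {x e v : G} (he : e ∈ D ∧ e ≠ x ∧ Commute x e) (hve : ¬ ttCn D x v e) :
    ∀ w : G, ttCn D x v w → ttCn D e v w := by
  intro w hw
  unfold ttCn at hw
  induction hw with
  | refl => exact ttCn_refl e v
  | tail hvb hbc ih =>
    rename_i b c
    have hvb' : ttCn D x v b := hvb
    have hvc' : ttCn D x v c := Relation.ReflTransGen.tail hvb hbc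
    have hbe : ¬ ttCn D x b e := fun hh => hve (ttCn_trans hvb' hh)
    have hce : ¬ ttCn D x c e := fun hh => hve (ttCn_trans hvc' hh)
    have hb1 : b ≠ e := by
      intro heq; rw [heq] at hbe; exact hbe (ttCn_refl x e)
    have hc1 : c ≠ e := by
      intro heq; rw [heq] at hce; exact hce (ttCn_refl x e)
    have hb2 : Commute b e := commute_of_not_ttCn hbc.1 he hbe
    have hc2 : Commute c e := commute_of_not_ttCn hbc.2.1 he hce
    exact Relation.ReflTransGen.tail ih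
      ⟨⟨hbc.1.1, hb1, hb2.symm⟩, ⟨hbc.2.1.1, hc1, hc2.symm⟩, hbc.2.2⟩

/-- the two components agree -/
theorem ttCn_F2b [Finite G] (h : TTPrim D) {x e v : G} (hx : x ∈ D)
    (he : e ∈ D ∧ e ≠ x ∧ Commute x e) (hvx : v ∈ D ∧ v ≠ x ∧ Commute x v)
    (hve1 : v ≠ e) (hve2 : Commute e v) (hve : ¬ ttCn D x v e) :
    ∀ w : G, ttCn D e v w → ttCn D x v w := by
  have hD := h.1
  obtain ⟨g, hg1, hg2⟩ := tt_D h hvx.1 hx he.1 hvx.2.2 hve2 (Ne.symm hvx.2.1) (Ne.symm hve1)
  have hsub : {w : G | ttCn D x v w} ⊆ {w : G | ttCn D e v w} := fun w hw => ttCn_F2a he hve w hw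
  have hcard : ({w : G | ttCn D x v w}).ncard = ({w : G | ttCn D e v w}).ncard := by
    apply ttcj_ncard g
    · intro w hw
      have := ttCn_conj hD g hw
      rw [hg1, hg2] at this
      exact this
    · intro w hw
      have := ttCn_conj hD g⁻¹ hw
      rw [← hg2, ttcj_inv_cancel] at this
      have h3 : ttcj g⁻¹ v = v := by
        conv_lhs => rw [← hg1]
        exact ttcj_inv_cancel g v
      rw [h3] at this
      exact this
  have heq := Set.eq_of_subset_of_ncard_le hsub hcard.ge (Set.toFinite _)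
  intro w hw
  have : w ∈ {w : G | ttCn D x v w} := by rw [heq]; exact hw
  exact this

/-- separation is symmetric -/
theorem ttCn_F3 [Finite G] (h : TTPrim D) {x e f : G} (hx : x ∈ D) (he : e ∈ D) (hf : f ∈ D)
    (hxe : x ≠ e) (hxf : x ≠ f) (hef : e ≠ f) (hcxe : Commute x e) (hcxf : Commute x f)
    (hcef : Commute e f) (hsep : ¬ ttCn D x e f) : ¬ ttCn D e x f := by
  intro hcon
  have h1 : ttCn D e f x := ttCn_symm hcon
  have h2 : ttCn D x f x :=
    ttCn_F2b h hx ⟨he, Ne.symm hxe, hcxe⟩ ⟨hf, Ne.symm hxf, hcxf⟩ (Ne.symm hef) hcef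
      (fun hh => hsep (ttCn_symm hh)) x h1
  exact (ttCn_mem ⟨hf, Ne.symm hxf, hcxf⟩ h2).2.1 rfl

/-- if no neighbourhood is connected, the component of `v` among the neighbours of `u` does
not depend on `u` -/
theorem ttCn_F4 [Finite G] (h : TTPrim D)
    (hH : ∀ v ∈ D, ∀ u : G, (u ∈ D ∧ u ≠ v ∧ Commute v u) →
      ∃ u'' : G, (u'' ∈ D ∧ u'' ≠ v ∧ Commute v u'') ∧ ¬ ttCn D v u u'')
    {v u u' : G} (hv : v ∈ D) (hu : u ∈ D ∧ u ≠ v ∧ Commute v u)
    (hu' : u' ∈ D ∧ u' ≠ v ∧ Commute v u') : ∀ w : G, ttCn D u v w → ttCn D u' v w := by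
  have key : ∀ {u u' : G}, (u ∈ D ∧ u ≠ v ∧ Commute v u) → (u' ∈ D ∧ u' ≠ v ∧ Commute v u') →
      ¬ ttCn D v u u' → ∀ w : G, ttCn D u v w → ttCn D u' v w := by
    intro u u' hu hu' hsep
    have hcomm : Commute u u' := commute_of_not_ttCn hu hu' hsep
    have hne : u ≠ u' := by
      intro heq; rw [heq] at hsep; exact hsep (ttCn_refl v u')
    have h3 : ¬ ttCn D u v u' :=
      ttCn_F3 h hv hu.1 hu'.1 (Ne.symm hu.2.1) (Ne.symm hu'.2.1) hne hu.2.2 hu'.2.2 hcomm hsep
    exact ttCn_F2a ⟨hu'.1, Ne.symm hne, hcomm⟩ h3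
  by_cases hsep : ttCn D v u u'
  · obtain ⟨u'', hu'', hsep''⟩ := hH v hv u hu
    have hsep2 : ¬ ttCn D v u'' u' := by
      intro hh
      exact hsep'' (ttCn_trans hsep (ttCn_symm hh))
    intro w hw
    exact key hu'' hu' hsep2 w (key hu hu'' hsep'' w hw)
  · exact key hu hu' hsep

/-- components are blocks -/
theorem ttCn_blk [Finite G] (h : TTPrim D)
    (hH : ∀ v ∈ D, ∀ u : G, (u ∈ D ∧ u ≠ v ∧ Commute v u) →
      ∃ u'' : G, (u'' ∈ D ∧ u'' ≠ v ∧ Commute v u'') ∧ ¬ ttCn D v u u'')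
    {x e₀ : G} (hx : x ∈ D) (he₀ : e₀ ∈ D ∧ e₀ ≠ x ∧ Commute x e₀) :
    TTBlk {w : G | ttCn D x e₀ w} := by
  have hD := h.1
  intro g y hy hgy z hz
  have hy' : ttCn D x e₀ y := hy
  have hgy' : ttCn D x e₀ (ttcj g y) := hgy
  have hz' : ttCn D x e₀ z := hz
  have hyx := ttCn_mem he₀ hy'
  have hgyx := ttCn_mem he₀ hgy'
  have h1 : ttCn D (ttcj g x) (ttcj g y) (ttcj g z) :=
    ttCn_conj hD g (ttCn_trans (ttCn_symm hy') hz')
  have h2 : ttCn D x (ttcj g y) (ttcj g z) :=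
    ttCn_F4 h hH hgyx.1
      ⟨ttcj_mem hD hx g, fun heq => hyx.2.1 (ttcj_inj heq).symm,
        (ttcj_commute_iff g y x).mpr hyx.2.2.symm⟩
      ⟨hx, Ne.symm hgyx.2.1, hgyx.2.2.symm⟩ _ h1
  exact ttCn_trans hgy' h2

/-- the neighbours of `x` are connected in the non-commuting graph -/
theorem ttCn_all [Finite G] (h : TTPrim D) {x e f : G} (hx : x ∈ D)
    (he : e ∈ D ∧ e ≠ x ∧ Commute x e) (hf : f ∈ D ∧ f ≠ x ∧ Commute x f) : ttCn D x e f := by
  have hD := h.1
  by_contra hnc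
  have hH : ∀ v ∈ D, ∀ u : G, (u ∈ D ∧ u ≠ v ∧ Commute v u) →
      ∃ u'' : G, (u'' ∈ D ∧ u'' ≠ v ∧ Commute v u'') ∧ ¬ ttCn D v u u'' := by
    intro v hv u hu
    obtain ⟨g, hg1, hg2⟩ := tt_pairs h hx he.1 hv hu.1 (Ne.symm he.2.1) (Ne.symm hu.2.1)
      he.2.2 hu.2.2
    refine ⟨ttcj g f, ⟨ttcj_mem hD hf.1 g, ?_, ?_⟩, ?_⟩
    · rw [← hg1]; exact fun heq => hf.2.1 (ttcj_inj heq)
    · rw [← hg1, ttcj_commute_iff]; exact hf.2.2
    · intro hh
      rw [← hg1, ← hg2] at hh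
      have := ttCn_conj hD g⁻¹ hh
      rw [ttcj_inv_cancel, ttcj_inv_cancel, ttcj_inv_cancel] at this
      exact hnc this
  have hblk := ttCn_blk h hH hx he
  have hBD : {w : G | ttCn D x e w} ⊆ D := fun w hw => (ttCn_mem he hw).1
  by_cases hex : ∃ w : G, ttCn D x e w ∧ w ≠ e
  · obtain ⟨w, hw, hwe⟩ := hex
    have hDB := h.2.1 _ hBD hblk e (ttCn_refl x e) w hw (Ne.symm hwe)
    exact (ttCn_mem he (hDB hx)).2.1 rfl
  · push Not at hex
    -- `e` commutes with all neighbours of `x`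
    have hecomm : ∀ w : G, (w ∈ D ∧ w ≠ x ∧ Commute x w) → Commute e w := by
      intro w hw
      by_contra hc
      have h1 := hex w (ttCn_of_not_commute he hw hc)
      rw [h1] at hc
      exact hc (Commute.refl e)
    -- the neighbours of `x` commute pairwise
    have hall : ∀ a b : G, (a ∈ D ∧ a ≠ x ∧ Commute x a) → (b ∈ D ∧ b ≠ x ∧ Commute x b) →
        Commute a b := by
      intro a b ha hb
      obtain ⟨g, hg1, hg2⟩ := tt_D h hx he.1 ha.1 he.2.2.symm ha.2.2.symm he.2.1 ha.2.1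
      have hb' : ttcj g⁻¹ b ∈ D ∧ ttcj g⁻¹ b ≠ x ∧ Commute x (ttcj g⁻¹ b) := by
        have hx' : ttcj g⁻¹ x = x := by
          conv_lhs => rw [← hg1]
          exact ttcj_inv_cancel g x
        refine ⟨ttcj_mem hD hb.1 _, ?_, ?_⟩
        · intro heq
          rw [← hx'] at heq
          exact hb.2.1 (ttcj_inj heq)
        · have := (ttcj_commute_iff g⁻¹ x b).mpr hb.2.2
          rwa [hx'] at this
      have h1 := hecomm _ hb'
      have h2 := (ttcj_commute_iff g e (ttcj g⁻¹ b)).mpr h1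
      rwa [hg2, ttcj_cancel_inv] at h2
    -- the same for the neighbours of `e`
    have hall' : ∀ a b : G, (a ∈ D ∧ a ≠ e ∧ Commute e a) → (b ∈ D ∧ b ≠ e ∧ Commute e b) →
        Commute a b := by
      intro a b ha hb
      obtain ⟨g, hg⟩ := tt_exists_conj hD hx he.1
      have hg' : ttcj g x = e := hg
      have hx' : ttcj g⁻¹ e = x := by
        rw [← hg']; exact ttcj_inv_cancel g x
      have conv : ∀ c : G, (c ∈ D ∧ c ≠ e ∧ Commute e c) →
          (ttcj g⁻¹ c ∈ D ∧ ttcj g⁻¹ c ≠ x ∧ Commute x (ttcj g⁻¹ c)) := by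
        intro c hc
        refine ⟨ttcj_mem hD hc.1 _, ?_, ?_⟩
        · intro heq
          rw [← hx'] at heq
          exact hc.2.1 (ttcj_inj heq)
        · have := (ttcj_commute_iff g⁻¹ e c).mpr hc.2.2
          rwa [hx'] at this
      have h1 := hall _ _ (conv a ha) (conv b hb)
      exact (ttcj_commute_iff g⁻¹ a b).mp h1
    have heq : e = x := by
      apply tt_V h hx he.1
      intro y hy
      constructor
      · intro hey
        by_cases hye : y = e
        · rw [hye]; exact he.2.2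
        · exact hall' x y ⟨hx, Ne.symm he.2.1, he.2.2.symm⟩ ⟨hy, hye, hey⟩
      · intro hxy
        by_cases hyx : y = x
        · rw [hyx]; exact he.2.2.symm
        · exact hall e y he ⟨hy, hyx, hxy⟩
    exact he.2.1 heq

/-- connected members are conjugate in the subgroup generated by the neighbours -/
theorem ttCn_conj_closure (hD : IsThreeTranspositionClass D) {x e f : G} (h : ttCn D x e f) :
    ∃ g ∈ Subgroup.closure {y : G | y ∈ D ∧ y ≠ x ∧ Commute x y}, g * e * g⁻¹ = f := by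
  unfold ttCn at h
  induction h with
  | refl => exact ⟨1, Subgroup.one_mem _, by group⟩
  | tail hvb hbc ih =>
    rename_i b c
    obtain ⟨g, hg, hgb⟩ := ih
    have hb : b ∈ Subgroup.closure {y : G | y ∈ D ∧ y ≠ x ∧ Commute x y} :=
      Subgroup.subset_closure hbc.1
    have hc : c ∈ Subgroup.closure {y : G | y ∈ D ∧ y ≠ x ∧ Commute x y} :=
      Subgroup.subset_closure hbc.2.1
    refine ⟨b * c * b * g, Subgroup.mul_mem _ (Subgroup.mul_mem _ (Subgroup.mul_mem _ hb hc) hb)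
      hg, ?_⟩
    have h1 : ttcj (b * c * b) b = c := (tt_swap hD hbc.1.1 hbc.2.1.1 hbc.2.2).1
    have h2 : ttcj g e = b := hgb
    have h3 : ttcj (b * c * b * g) e = c := by rw [ttcj_mul, h2, h1]
    exact h3

end Cfsg.Agent.Lib.Helper11
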