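import Mathlib
import Cfsg.Prelude.Def_SporadicB
import Cfsg.Agent.Lib.Helper11.Rank3E

/-!
# Definitions for S1615 (Fischer: the odd core of `⟨D_x⟩` is not central)
-/

set_option autoImplicit false

namespace Cfsg.Agent.Lib.Helper11

open Cfsg

variable {G : Type*} [Group G]

/-- the members of `D` other than `x` commuting with `x` -/
def ttNb (D : Set G) (x : G) : Set G := {y : G | y ∈ D ∧ y ≠ x ∧ Commute x y}

/-- `N` is a subgroup centralizing `x`, normalized by the neighbours of `x`, without involutions,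
and centralized by no neighbour of `x` -/
structure F15N (D : Set G) (x : G) (N : Subgroup G) : Prop where
  comm : ∀ n ∈ N, Commute n x
  norm : ∀ y ∈ ttNb D x, ∀ n ∈ N, y * n * y⁻¹ ∈ N
  noinv : ∀ n ∈ N, n * n = 1 → n = 1
  moved : ∀ a ∈ ttNb D x, ∃ n ∈ N, ¬ Commute a n

end Cfsg.Agent.Lib.Helper11
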