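import Mathlib
import Cfsg.Prelude.Def_SporadicB
import Cfsg.Agent.Lib.Helper11.F15Def

/-!
# S1615: orbits of the odd normal subgroup on the neighbours of `x`
-/

set_option autoImplicit false

namespace Cfsg.Agent.Lib.Helper11

open Cfsg

variable {G : Type*} [Group G] {D : Set G}

/-- the `N`-conjugates of a neighbour `a` of `x` are neighbours of `x`, and are equal to `a` or do
not commute with `a` -/
theorem f15_orbit (hD : IsThreeTranspositionClass D) {x : G} {N : Subgroup G} (hN : F15N D x N)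
    {a n : G} (ha : a ∈ ttNb D x) (hn : n ∈ N) :
    n * a * n⁻¹ ∈ ttNb D x ∧ (Commute a (n * a * n⁻¹) → n * a * n⁻¹ = a) := by
  have hnx : Commute n x := hN.comm n hn
  have hainv : a⁻¹ = a := tt_inv hD ha.1
  have haa : a * a = 1 := tt_sq hD ha.1
  refine ⟨⟨tt_conj_mem hD ha.1 n, ?_, ?_⟩, ?_⟩
  · intro h1
    apply ha.2.1
    have h2 : a = n⁻¹ * (n * a * n⁻¹) * n := by group
    rw [h2, h1]
    have h3 : x * n = n * x := hnx.symm.eq
    rw [mul_assoc, h3, ← mul_assoc, inv_mul_cancel, one_mul]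
  · exact (hnx.symm.mul_right ha.2.2).mul_right hnx.symm.inv_right
  · intro hc
    have h1 : a * (n * a * n⁻¹) ∈ N := by
      have h2 : a * n * a⁻¹ ∈ N := hN.norm a ha n hn
      have h3 : a * (n * a * n⁻¹) = a * n * a⁻¹ * n⁻¹ := by rw [hainv]; group
      rw [h3]
      exact N.mul_mem h2 (N.inv_mem hn)
    have hcc : (n * a * n⁻¹) * (n * a * n⁻¹) = 1 := by
      have h4 : (n * a * n⁻¹) * (n * a * n⁻¹) = n * (a * a) * n⁻¹ := by group
      rw [h4, haa, mul_one, mul_inv_cancel]
    have key : ∀ c : G, c * c = 1 → Commute a c → a * c * (a * c) = 1 := by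
      intro c hcc' hac
      calc a * c * (a * c) = a * (c * a) * c := by group
        _ = a * (a * c) * c := by rw [hac.eq]
        _ = (a * a) * (c * c) := by group
        _ = 1 := by rw [haa, hcc', mul_one]
    have h5 : a * (n * a * n⁻¹) * (a * (n * a * n⁻¹)) = 1 := key _ hcc hc
    have h7 := hN.noinv _ h1 h5
    have h8 : n * a * n⁻¹ = a⁻¹ := eq_inv_of_mul_eq_one_right h7
    rw [h8, hainv]

/-- a neighbour of `x` commuting with `a` commutes with the `N`-conjugates of `a` -/
theorem f15_step3 (hD : IsThreeTranspositionClass D) {x : G} {N : Subgroup G} (hN : F15N D x N)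
    {a y n : G} (ha : a ∈ ttNb D x) (hy : y ∈ ttNb D x) (hn : n ∈ N) (hya : y ≠ a)
    (hc : Commute y a) : Commute y (n * a * n⁻¹) := by
  obtain ⟨hc', hfix⟩ := f15_orbit hD hN ha hn
  set c := n * a * n⁻¹ with hcdef
  by_cases hca : c = a
  · rw [hca]; exact hc
  by_contra hnc
  have hac : ¬ Commute a c := fun h => hca (hfix h)
  have hainv : a⁻¹ = a := tt_inv hD ha.1
  have hyinv : y⁻¹ = y := tt_inv hD hy.1
  have hcinv : c⁻¹ = c := tt_inv hD hc'.1
  have haa : a * a = 1 := tt_sq hD ha.1
  have hyy : y * y = 1 := tt_sq hD hy.1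
  have hcc : c * c = 1 := tt_sq hD hc'.1
  have hay : a * y = y * a := hc.symm.eq
  have hbr1 : a * c * a = c * a * c := (tt_braid hD ha.1 hc'.1 hac).1
  have hbr2 : y * c * y = c * y * c := (tt_braid hD hy.1 hc'.1 hnc).1
  -- w = a c lies in N
  have hw : a * c ∈ N := by
    have h2 : a * n * a⁻¹ ∈ N := hN.norm a ha n hn
    have h3 : a * c = a * n * a⁻¹ * n⁻¹ := by rw [hcdef, hainv]; group
    rw [h3]
    exact N.mul_mem h2 (N.inv_mem hn)
  have hw' : c * a ∈ N := by
    have h1 := N.inv_mem hw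
    rwa [mul_inv_rev, hainv, hcinv] at h1
  have h4 : a * (y * (c * a) * y⁻¹) * a⁻¹ ∈ N := hN.norm a ha _ (hN.norm y hy _ hw')
  have h5 : a * c * (a * (y * (c * a) * y⁻¹) * a⁻¹) ∈ N := N.mul_mem hw h4
  have h6 : a * c * (a * (y * (c * a) * y⁻¹) * a⁻¹) = c * (a * y) * c := by
    rw [hyinv, hainv]
    calc a * c * (a * (y * (c * a) * y) * a)
        = (a * c * a) * (y * c * (a * y * a)) := by group
      _ = (a * c * a) * (y * c * y) := by
          rw [show a * y * a = y from by rw [hay, mul_assoc, haa, mul_one]]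
      _ = (c * a * c) * (c * y * c) := by rw [hbr1, hbr2]
      _ = c * a * (c * c) * y * c := by group
      _ = c * (a * y) * c := by rw [hcc]; group
  rw [h6] at h5
  have h7 : c * (a * y) * c * (c * (a * y) * c) = 1 := by
    calc c * (a * y) * c * (c * (a * y) * c)
        = c * a * y * (c * c) * a * y * c := by group
      _ = c * a * (y * a) * y * c := by rw [hcc]; group
      _ = c * a * (a * y) * y * c := by rw [hay]
      _ = c * (a * a) * (y * y) * c := by group
      _ = 1 := by rw [haa, hyy, mul_one, mul_one, hcc]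
  have h8 := hN.noinv _ h5 h7
  have h9 : a * y = 1 := by
    have h10 : a * y = c * (c * (a * y) * c) * c := by
      calc a * y = (c * c) * (a * y) * (c * c) := by rw [hcc, one_mul, mul_one]
        _ = c * (c * (a * y) * c) * c := by group
    rw [h10, h8, mul_one, hcc]
  apply hya
  have h11 : y = a⁻¹ := eq_inv_of_mul_eq_one_right h9
  rw [h11, hainv]

end Cfsg.Agent.Lib.Helper11
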