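import Mathlib
import Cfsg.Prelude.Def_SporadicB
import Cfsg.Agent.Lib.Helper11.F15Orb
import Cfsg.Agent.Lib.Helper67.F15TWIN
import Cfsg.Agent.Lib.Helper17.F15F3

/-!
# S1615: no two different neighbours of `x` commute
-/

set_option autoImplicit false

namespace Cfsg.Agent.Lib.Helper11

open Cfsg

variable {G : Type*} [Group G] {D : Set G}

theorem commute_ttcj {y p q : G} (h1 : Commute y p) (h2 : Commute y q) : Commute y (ttcj p q) := by
  unfold ttcj
  exact (h1.mul_right h2).mul_right h1.inv_right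

/-- the `S₈`-type configuration is impossible -/
theorem f15_caseA (hD : IsThreeTranspositionClass D) {x : G} (hx : x ∈ D) {N : Subgroup G}
    (hN : F15N D x N) {a n e y : G} (ha : a ∈ ttNb D x) (hn : n ∈ N)
    (he : e ∈ D) (hex : ¬ Commute e x) (hea : Commute e a) (hea' : ¬ Commute e (n * a * n⁻¹))
    (hy : y ∈ D) (hyx : ¬ Commute y x) (hya : Commute y a) (hya' : Commute y (n * a * n⁻¹))
    (hey : Commute e y) : False := by
  obtain ⟨ha', hfix⟩ := f15_orbit hD hN ha hn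
  set a' := n * a * n⁻¹ with ha'def
  have haD := ha.1
  have ha'D := ha'.1
  have hne : a' ≠ a := fun h => hea' (h ▸ hea)
  have hnc : ¬ Commute a a' := fun h => hne (hfix h)
  have hnc' : ¬ Commute a' a := fun h => hnc h.symm
  have hxa : Commute x a := ha.2.2
  have hxa' : Commute x a' := ha'.2.2
  have hye : Commute y e := hey.symm
  have hxy : ¬ Commute x y := fun h => hyx h.symm
  have hxe : ¬ Commute x e := fun h => hex h.symm
  have ha'e : ¬ Commute a' e := fun h => hea' h.symm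
  -- the element c
  set W := ttcj e (ttcj a' a) with hW
  set c := ttcj y (ttcj x W) with hc
  have hcD : c ∈ D := ttcj_mem hD (ttcj_mem hD (ttcj_mem hD (ttcj_mem hD haD _) _) _) _
  have hyinv : y⁻¹ = y := tt_inv hD hy
  have hxinv : x⁻¹ = x := tt_inv hD hx
  have heinv : e⁻¹ = e := tt_inv hD he
  have hainv : a⁻¹ = a := tt_inv hD haD
  -- c commutes with x
  have h1 : Commute c x := by
    rw [hc, ttcj_commute_iff', hyinv, ttcj_br hD hy hx hyx, ttcj_commute_iff]
    exact (commute_ttcj hye (commute_ttcj hya' hya)).symm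
  -- c commutes with a'
  have h2 : Commute c a' := by
    rw [hc, ttcj_commute_iff', hyinv, ttcj_comm hya', ttcj_commute_iff', hxinv, ttcj_comm hxa',
      hW, ttcj_commute_iff', heinv, ttcj_br hD he ha'D (fun h => ha'e h.symm), ttcj_commute_iff]
    exact hea.symm
  -- c does not commute with a
  have h3 : ¬ Commute c a := by
    rw [hc, ttcj_commute_iff', hyinv, ttcj_comm hya, ttcj_commute_iff', hxinv, ttcj_comm hxa,
      hW, ttcj_commute_iff', heinv, ttcj_comm hea, ttcj_br hD ha'D haD hnc', ttcj_commute_iff',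
      hainv, ttcj_self]
    exact hnc'
  -- c commutes with e
  have h4 : Commute c e := by
    rw [hc, ttcj_commute_iff', hyinv, ttcj_comm hye, ttcj_commute_iff', hxinv,
      ttcj_br hD hx he hxe, hW, ttcj_commute_iff]
    exact (commute_ttcj hxa' hxa).symm
  have hca' : c ≠ a' := fun h => ha'e (h ▸ h4)
  have hcx : c ≠ x := fun h => h3 (h ▸ hxa)
  have hcN : c ∈ ttNb D x := ⟨hcD, hcx, h1.symm⟩
  have h5 := f15_step3 hD hN ha' hcN (N.inv_mem hn) hca' h2
  have h6 : n⁻¹ * a' * n⁻¹⁻¹ = a := by rw [ha'def]; group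
  rw [h6] at h5
  exact h3 h5

theorem f15_core (hD : IsThreeTranspositionClass D) {x : G} (hx : x ∈ D) {N : Subgroup G}
    (hN : F15N D x N) {a b n m e y : G} (ha : a ∈ ttNb D x) (hb : b ∈ ttNb D x) (hn : n ∈ N)
    (hm : m ∈ N) (hba : b ≠ a) (hbc : Commute b a)
    (he : e ∈ D) (hex : ¬ Commute e x) (hea : Commute e a) (hea' : ¬ Commute e (n * a * n⁻¹))
    (hy : y ∈ D) (hyx : ¬ Commute y x) (hyb : Commute y b) (hyb' : ¬ Commute y (m * b * m⁻¹)) :
    False := by
  obtain ⟨ha', hfixa⟩ := f15_orbit hD hN ha hn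
  obtain ⟨hb', hfixb⟩ := f15_orbit hD hN hb hm
  set a' := n * a * n⁻¹ with ha'def
  set b' := m * b * m⁻¹ with hb'def
  have hnea : a' ≠ a := fun h => hea' (h ▸ hea)
  have hneb : b' ≠ b := fun h => hyb' (h ▸ hyb)
  have hnca : ¬ Commute a a' := fun h => hnea (hfixa h)
  have hncb : ¬ Commute b b' := fun h => hneb (hfixb h)
  have hba' : Commute b a' := f15_step3 hD hN ha hb hn hba hbc
  have hab' : Commute a b' := f15_step3 hD hN hb ha hm hba.symm hbc.symm
  have ha'b : a' ≠ b := fun h => hnca (h ▸ hbc.symm)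
  have hb'a : b' ≠ a := fun h => hncb (h ▸ hbc)
  have ha'b' : Commute a' b' := f15_step3 hD hN hb ha' hm ha'b hba'.symm
  have hbe : Commute b e := Cfsg.Agent.Lib.Helper17.F15.f15_F3 hD hx hN ha hn he hex hea hea' hb hba hbc
  have hb'e : Commute b' e := Cfsg.Agent.Lib.Helper17.F15.f15_F3 hD hx hN ha hn he hex hea hea' hb' hb'a hab'.symm
  have hay : Commute a y := Cfsg.Agent.Lib.Helper17.F15.f15_F3 hD hx hN hb hm hy hyx hyb hyb' ha hba.symm hbc.symm
  have ha'y : Commute a' y := Cfsg.Agent.Lib.Helper17.F15.f15_F3 hD hx hN hb hm hy hyx hyb hyb' ha' ha'b hba'.symm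
  have hxinv : x⁻¹ = x := tt_inv hD hx
  have hyinv : y⁻¹ = y := tt_inv hD hy
  have heinv : e⁻¹ = e := tt_inv hD he
  by_cases hey : Commute e y
  · exact f15_caseA hD hx hN ha hn he hex hea hea' hy hyx hay.symm ha'y.symm hey
  · by_cases hey' : Commute e (ttcj x y)
    · have hy'D : ttcj x y ∈ D := ttcj_mem hD hy x
      have h1 : ¬ Commute (ttcj x y) x := by
        rw [ttcj_commute_iff', hxinv, ttcj_self]; exact hyx
      have h2 : Commute (ttcj x y) a := (commute_ttcj ha.2.2.symm hay).symm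
      have h3 : Commute (ttcj x y) a' := (commute_ttcj ha'.2.2.symm ha'y).symm
      exact f15_caseA hD hx hN ha hn he hex hea hea' hy'D h1 h2 h3 hey'
    · -- the point p = y e y
      have hpD : ttcj y e ∈ D := ttcj_mem hD he y
      have h1 : ¬ Commute (ttcj y e) x := by
        rw [ttcj_commute_iff', hyinv, ttcj_br hD hy hx hyx]; exact hey'
      have h2 : Commute (ttcj y e) a := (commute_ttcj hay hea.symm).symm
      have h3 : ¬ Commute (ttcj y e) a' := by
        rw [ttcj_commute_iff', hyinv, ttcj_comm ha'y.symm]; exact hea'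
      have h4 : Commute b' (ttcj y e) :=
        Cfsg.Agent.Lib.Helper17.F15.f15_F3 hD hx hN ha hn hpD h1 h2 h3 hb' hb'a hab'.symm
      rw [ttcj_br hD hy he (fun h => hey h.symm)] at h4
      have h5 : Commute (ttcj e y) b' := h4.symm
      rw [ttcj_commute_iff', heinv, ttcj_comm hb'e.symm] at h5
      exact hyb' h5

/-- separation of orbit mates -/
theorem f15_sep [Finite G] (h : TTPrim D) {x : G} (hx : x ∈ D) {N : Subgroup G}
    (hN : F15N D x N) {a : G} (ha : a ∈ ttNb D x) :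
    ∃ a₁ ∈ ttNb D x, ∃ n ∈ N, ∃ e ∈ D, ¬ Commute e x ∧ Commute e a₁ ∧
      ¬ Commute e (n * a₁ * n⁻¹) ∧ (a₁ = a ∨ ∃ n₀ ∈ N, a₁ = n₀ * a * n₀⁻¹) := by
  have hD := h.1
  obtain ⟨n, hn, hna⟩ := hN.moved a ha
  obtain ⟨ha', hfix⟩ := f15_orbit hD hN ha hn
  have hne : n * a * n⁻¹ ≠ a := by
    intro h1
    apply hna
    show a * n = n * a
    calc a * n = n * a * n⁻¹ * n := by rw [h1]
      _ = n * a := by group
  obtain ⟨z, hzD, hza, hza', hz⟩ := Cfsg.Agent.Lib.Helper67.F15.tt_twin h ha.1 ha'.1 hne.symm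
  have hzx : ¬ Commute z x := by
    intro hzx
    by_cases hzx' : z = x
    · apply hz
      rw [hzx']
      exact ⟨fun _ => ha'.2.2, fun _ => ha.2.2⟩
    · have hzN : z ∈ ttNb D x := ⟨hzD, hzx', hzx.symm⟩
      apply hz
      constructor
      · intro hc
        exact f15_step3 hD hN ha hzN hn hza hc
      · intro hc
        have h5 := f15_step3 hD hN ha' hzN (N.inv_mem hn) hza' hc
        have h6 : n⁻¹ * (n * a * n⁻¹) * n⁻¹⁻¹ = a := by group
        rwa [h6] at h5
  by_cases hc : Commute z a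
  · have hc' : ¬ Commute z (n * a * n⁻¹) := fun h' => hz ⟨fun _ => h', fun _ => hc⟩
    exact ⟨a, ha, n, hn, z, hzD, hzx, hc, hc', Or.inl rfl⟩
  · have hc' : Commute z (n * a * n⁻¹) := by
      by_contra h'
      exact hz ⟨fun h1 => absurd h1 hc, fun h1 => absurd h1 h'⟩
    refine ⟨n * a * n⁻¹, ha', n⁻¹, N.inv_mem hn, z, hzD, hzx, hc', ?_, Or.inr ⟨n, hn, rfl⟩⟩
    have h6 : n⁻¹ * (n * a * n⁻¹) * n⁻¹⁻¹ = a := by group
    rw [h6]
    exact hc

/-- no two different neighbours of `x` commute -/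
theorem f15_lambda0 [Finite G] (h : TTPrim D) {x : G} (hx : x ∈ D) {N : Subgroup G}
    (hN : F15N D x N) : ∀ a ∈ ttNb D x, ∀ b ∈ ttNb D x, Commute a b → a = b := by
  have hD := h.1
  intro a ha b hb hab
  by_contra hne
  obtain ⟨a₁, ha₁, n, hn, e, he, hex, hea, hea', hor⟩ := f15_sep h hx hN ha
  obtain ⟨b₁, hb₁, m, hm, y, hy, hyx, hyb, hyb', hor'⟩ := f15_sep h hx hN hb
  -- b commutes with a₁
  have h1 : Commute b a₁ ∧ b ≠ a₁ := by
    rcases hor with rfl | ⟨n₀, hn₀, rfl⟩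
    · exact ⟨hab.symm, fun h' => hne h'.symm⟩
    · refine ⟨f15_step3 hD hN ha hb hn₀ (fun h' => hne h'.symm) hab.symm, ?_⟩
      intro h'
      obtain ⟨-, hfix⟩ := f15_orbit hD hN ha hn₀
      have h2 : n₀ * a * n₀⁻¹ = a := hfix (h' ▸ hab)
      exact hne (h2 ▸ h'.symm)
  -- b₁ commutes with a₁
  have h2 : Commute b₁ a₁ ∧ b₁ ≠ a₁ := by
    rcases hor' with rfl | ⟨m₀, hm₀, rfl⟩
    · exact h1
    · refine ⟨(f15_step3 hD hN hb ha₁ hm₀ (fun h' => h1.2 h'.symm) h1.1.symm).symm, ?_⟩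
      intro h'
      obtain ⟨-, hfix⟩ := f15_orbit hD hN hb hm₀
      have h3 : m₀ * b * m₀⁻¹ = b := hfix (h' ▸ h1.1)
      exact h1.2 (h3 ▸ h')
  exact f15_core hD hx hN ha₁ hb₁ hn hm h2.2 h2.1 he hex hea hea' hy hyx hyb hyb'

theorem ttNb_cj (hD : IsThreeTranspositionClass D) {x a b : G} (ha : a ∈ ttNb D x)
    (hb : b ∈ ttNb D x) : a * b * a ∈ ttNb D x := by
  have h1 : a * b * a = ttcj a b := by rw [ttcj_def, tt_inv hD ha.1]
  rw [h1]
  refine ⟨ttcj_mem hD hb.1 a, ?_, commute_ttcj ha.2.2 hb.2.2⟩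
  intro h2
  have h3 : ttcj a b = ttcj a x := by rw [h2, ttcj_comm ha.2.2.symm]
  exact hb.2.1 (ttcj_inj h3)

theorem f15_lambda0_all (hD : IsThreeTranspositionClass D) {x : G} (hx : x ∈ D)
    (hlam : ∀ a ∈ ttNb D x, ∀ b ∈ ttNb D x, Commute a b → a = b) :
    ∀ d ∈ D, ∀ a ∈ ttNb D d, ∀ b ∈ ttNb D d, Commute a b → a = b := by
  intro d hd a ha b hb hab
  obtain ⟨g, hg⟩ := tt_exists_conj hD hd hx
  have hg' : ttcj g d = x := hg
  have key : ∀ u ∈ ttNb D d, ttcj g u ∈ ttNb D x := by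
    intro u hu
    refine ⟨ttcj_mem hD hu.1 g, ?_, ?_⟩
    · intro h1
      rw [← hg'] at h1
      exact hu.2.1 (ttcj_inj h1)
    · rw [← hg']
      exact (ttcj_commute_iff g d u).mpr hu.2.2
  exact ttcj_inj (hlam _ (key a ha) _ (key b hb) ((ttcj_commute_iff g a b).mpr hab))

end Cfsg.Agent.Lib.Helper11
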