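import Cfsg.Agent.Lib.Helper98.T73Defs
import Cfsg.Agent.Lib.Helper47.SpPrime
import Cfsg.Agent.Lib.Helper47.PrimeOrd
import Cfsg.Agent.Lib.Helper47.DualPoly

/-!
# Project T73 (S5973): piece CYC (helper11 for helper98)
-/

set_option autoImplicit false

namespace Cfsg.Agent.Lib.Helper98.T73

open Cfsg.Agent.Lib.Helper47 Module Polynomial

universe u

variable {F : Type u} [Field F] [Fintype F] {V : Type u} [AddCommGroup V] [Module F V]
  [FiniteDimensional F V] {Q : V → F} {B : V → V → F}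

/-- CYC -/
theorem cyc_supply (p : ℕ) [Fact p.Prime] [CharP F p] (r : ℕ) (hr : r.Prime) (hr2 : r ≠ 2)
    (hrp : r ≠ p) :
    ∃ (t : ℕ) (φ : Fin t → F[X]), Function.Injective φ ∧ (∀ a, IsCycFactor r (φ a)) ∧
      t * orderOf ((Fintype.card F : ℕ) : ZMod r) = r - 1 ∧
      (Even (orderOf ((Fintype.card F : ℕ) : ZMod r)) →
        ∀ f : F[X], IsCycFactor r f → dualP (RingHom.id F) f = f) ∧
      (¬ Even (orderOf ((Fintype.card F : ℕ) : ZMod r)) →
        ∀ f : F[X], IsCycFactor r f → dualP (RingHom.id F) f ≠ f) ∧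
      (∀ f : F[X], IsCycFactor r f → IsCycFactor r (dualP (RingHom.id F) f) ∧
        dualP (RingHom.id F) (dualP (RingHom.id F) f) = f) := by
  have hp : p.Prime := Fact.out
  have hfact : Fact r.Prime := ⟨hr⟩
  obtain ⟨hfin, hcard⟩ := card_isCycFactor (F := F) (p := p) (q := Fintype.card F) rfl hr hrp
  have hσ : ∀ x, (RingHom.id F) ((RingHom.id F) x) = x := fun _ => rfl
  -- the order of q mod r divides r - 1
  have hq0 : ((Fintype.card F : ℕ) : ZMod r) ≠ 0 := by
    obtain ⟨k, -, hk⟩ := FiniteField.card F p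
    intro h0
    rw [ZMod.natCast_eq_zero_iff, hk] at h0
    have h1 : r ∣ p := hr.dvd_of_dvd_pow h0
    exact hrp ((Nat.prime_dvd_prime_iff_eq hr hp).mp h1)
  have hdvd : orderOf ((Fintype.card F : ℕ) : ZMod r) ∣ r - 1 :=
    ZMod.orderOf_dvd_card_sub_one hq0
  let e := Finite.equivFin {f : F[X] // IsCycFactor r f}
  refine ⟨Nat.card {f : F[X] // IsCycFactor r f}, fun a => (e.symm a).1, ?_, ?_, ?_, ?_, ?_, ?_⟩
  · intro a b hab
    exact e.symm.injective (Subtype.ext hab)
  · intro a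
    exact (e.symm a).2
  · rw [hcard]
    exact Nat.div_mul_cancel hdvd
  · intro hev f hf
    exact (dualP_id_eq_self_iff (p := p) rfl hr hr2 hrp hf).mpr hev
  · intro hev f hf h
    exact hev ((dualP_id_eq_self_iff (p := p) rfl hr hr2 hrp hf).mp h)
  · intro f hf
    refine ⟨dualP_isCycFactor p hσ hr hrp hf, ?_⟩
    exact (dualP_props p hσ f hf.1 (hf.coeff_zero_ne hr.pos)).2.2.2

end Cfsg.Agent.Lib.Helper98.T73
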