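import Cfsg.Agent.Lib.Helper98.T73Defs
import Cfsg.Agent.Lib.Helper89.T73CHARP
import Cfsg.Agent.Lib.Helper32.T73TYPC
import Cfsg.Agent.Lib.Helper23.T73TAUSGN
import Cfsg.Agent.Lib.Helper11.T73CYC

/-!
# Project H74 (S5974, helper98), piece TYR (helper11)

`rnd_typ`: an invariant nondegenerate subspace `W₁` of `[V, g]` has dimension `i * j` (`j` even if
`i` is odd) and type `sgn i j` (CHARP, TYPC, TAUSGN, CYC applied to the restriction of `g` to `W₁`,
which has no fixed vectors).
-/

set_option autoImplicit false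

namespace Cfsg.Agent.Lib.Helper98.H74

open Cfsg.Agent.Lib.Helper47 Cfsg.Agent.Lib.Helper98.T73 Module Polynomial

universe u

variable {F : Type u} [Field F] [Fintype F] {V : Type u} [AddCommGroup V] [Module F V]
  [FiniteDimensional F V] {Q : V → F} {B : V → V → F}

/-- a multiset stable under a fixed-point-free involution has even cardinality -/
theorem tyr_even_card {α : Type*} (σ : α → α) :
    ∀ (n : ℕ) (u : Multiset α), Multiset.card u = n → u.map σ = u → (∀ f ∈ u, σ f ≠ f) →
      (∀ f ∈ u, σ (σ f) = f) → Even n := by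
  intro n
  induction n using Nat.strong_induction_on with
  | _ n ih =>
    intro u hn hmap hne hinv
    by_cases h0 : u = 0
    · subst h0
      rw [Multiset.card_zero] at hn
      rw [← hn]
      exact ⟨0, rfl⟩
    · obtain ⟨f, hf⟩ := Multiset.exists_mem_of_ne_zero h0
      obtain ⟨t, rfl⟩ := Multiset.exists_cons_of_mem hf
      have hσf : σ f ∈ f ::ₘ t := by
        have h1 : σ f ∈ (f ::ₘ t).map σ := Multiset.mem_map_of_mem σ hf
        rw [hmap] at h1
        exact h1
      have hσt : σ f ∈ t := by
        rcases Multiset.mem_cons.1 hσf with h | h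
        · exact absurd h (hne f hf)
        · exact h
      obtain ⟨t', rfl⟩ := Multiset.exists_cons_of_mem hσt
      have hmap' : t'.map σ = t' := by
        rw [Multiset.map_cons, Multiset.map_cons, hinv f hf, Multiset.cons_swap] at hmap
        exact (Multiset.cons_inj_right _).1 ((Multiset.cons_inj_right _).1 hmap)
      have hcard : Multiset.card t' + 2 = n := by
        rw [← hn, Multiset.card_cons, Multiset.card_cons]
      have hev := ih (Multiset.card t') (by omega) t' rfl hmap'
        (fun g hg => hne g (Multiset.mem_cons_of_mem (Multiset.mem_cons_of_mem hg)))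
        (fun g hg => hinv g (Multiset.mem_cons_of_mem (Multiset.mem_cons_of_mem hg)))
      rw [← hcard]
      exact hev.add even_two

/-- TYR -/
theorem rnd_typ (hf : QFacts F) (hQ : IsQuad Q B) (hnd : Nondeg B) (p : ℕ) [Fact p.Prime]
    [CharP F p] (r : ℕ) (hr : r.Prime) (hr2 : r ≠ 2) (hrp : r ≠ p) (g : Module.End F V)
    (hgQ : QI Q g) (hg : g ^ r = 1) (W₁ : Submodule F V)
    (hWR : W₁ ≤ LinearMap.range (g - 1)) (hWg : W₁.map g ≤ W₁)
    (hWnd : Nondeg (resForm B W₁)) :
    ∃ j : ℕ, finrank F W₁ = orderOf ((Fintype.card F : ℕ) : ZMod r) * j ∧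
      (Odd (orderOf ((Fintype.card F : ℕ) : ZMod r)) → Even j) ∧
      ∀ k : ℕ, orderOf ((Fintype.card F : ℕ) : ZMod r) * j = 2 * k + 2 →
        SubTyp Q B W₁ k (sgn (orderOf ((Fintype.card F : ℕ) : ZMod r)) j) := by
  classical
  by_cases hW0 : W₁ = ⊥
  · subst hW0
    refine ⟨0, ?_, fun _ => ⟨0, rfl⟩, fun k hk => ?_⟩
    · rw [finrank_bot, mul_zero]
    · rw [mul_zero] at hk
      omega
  · have hrF : (r : F) ≠ 0 := by
      intro h
      have h1 := (CharP.cast_eq_zero_iff F p r).1 h
      exact hrp ((Nat.prime_dvd_prime_iff_eq (Fact.out : p.Prime) hr).1 h1).symm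
    have hp : W₁ ∈ Module.End.invtSubmodule g := by
      rw [Module.End.mem_invtSubmodule_iff_forall_mem_of_mem]
      intro x hx
      exact hWg (Submodule.mem_map_of_mem hx)
    have hQ' := hQ.res W₁
    have hgQ' : QI (fun w : W₁ => Q (w : V)) (resInv g hp) := by
      intro w
      show Q ((resInv g hp w : W₁) : V) = Q (w : V)
      rw [resInv_apply]
      exact hgQ w
    have hg'r : (resInv g hp) ^ r = 1 := by
      apply LinearMap.ext
      intro x
      apply Subtype.ext
      rw [resInv_pow_apply, hg]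
      rfl
    have hker : LinearMap.ker (resInv g hp - 1) = ⊥ := by
      rw [Submodule.eq_bot_iff]
      intro x hx
      rw [mem_ker_sub_one] at hx
      have hx' : g (x : V) = (x : V) := by
        have h1 := congrArg Subtype.val hx
        rw [resInv_apply] at h1
        exact h1
      have h0 := eq_zero_of_fix_of_mem_range g r hrF hg (x : V) hx' (hWR x.2)
      exact Subtype.ext h0
    have hg'1 : resInv g hp ≠ 1 := by
      intro h1
      obtain ⟨w, hw, hw0⟩ := (Submodule.ne_bot_iff _).1 hW0
      have hmem : (⟨w, hw⟩ : W₁) ∈ LinearMap.ker (resInv g hp - 1) := by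
        rw [mem_ker_sub_one, h1, Module.End.one_apply]
      rw [hker, Submodule.mem_bot] at hmem
      exact hw0 (congrArg Subtype.val hmem)
    obtain ⟨u, hu, hdual, hu0, hch, hrange⟩ :=
      charp hQ' hWnd p r hr hr2 hrp (resInv g hp) hgQ' hg'r hg'1
    have hdimW : finrank F W₁ = orderOf ((Fintype.card F : ℕ) : ZMod r) * Multiset.card u := by
      have h1 := LinearMap.finrank_range_add_finrank_ker (resInv g hp - 1)
      rw [hker, finrank_bot, add_zero] at h1
      rw [← h1, hrange]
    obtain ⟨t, φ, hφinj, hφcyc, hti, hevenD, hoddD, hdualD⟩ :=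
      cyc_supply (F := F) p r hr hr2 hrp
    refine ⟨Multiset.card u, hdimW, ?_, ?_⟩
    · intro hodd
      have hne : ¬ Even (orderOf ((Fintype.card F : ℕ) : ZMod r)) :=
        Nat.not_even_iff_odd.2 hodd
      exact tyr_even_card (dualP (RingHom.id F)) _ u rfl hdual
        (fun f hf => hoddD hne f (hu f hf)) (fun f hf => (hdualD f (hu f hf)).2)
    · intro k hk
      have hdim' : finrank F W₁ = 2 * k + 2 := by rw [hdimW, hk]
      have hk0 : finrank F (LinearMap.ker (resInv g hp - 1)) = 0 := by rw [hker, finrank_bot]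
      have hts := tau_sgn p r hr hr2 hrp u hu
      refine ⟨hWnd, hdim', ?_⟩
      rcases hf.typ_exists k W₁ (fun w : W₁ => Q (w : V)) (resForm B W₁) hQ' hWnd hdim'
        with h | h
      · have h4 := (typc hf hQ' hWnd k hdim' 1 h p r hr hr2 hrp (resInv g hp) hgQ' hg'r u hu
          hdual hu0 hch).2.2.2 hk0
        rw [← hts, h4]
        exact h
      · have h4 := (typc hf hQ' hWnd k hdim' (-1) h p r hr hr2 hrp (resInv g hp) hgQ' hg'r u hu
          hdual hu0 hch).2.2.2 hk0
        rw [← hts, h4]
        exact h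

end Cfsg.Agent.Lib.Helper98.H74
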