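import Mathlib
import Cfsg.Agent.S3993

set_option autoImplicit false

namespace Cfsg.Agent.Lib.Helper11.NseBase

/-- `N ∣ M` as soon as every prime power dividing `N` divides `M`. -/
theorem dvd_of_prime_pow_dvd (N M : ℕ) (hN : 0 < N) (hM : 0 < M)
    (h : ∀ p k : ℕ, p.Prime → p ^ k ∣ N → p ^ k ∣ M) : N ∣ M := by
  rw [← Nat.factorization_prime_le_iff_dvd hN.ne' hM.ne']
  intro p hp
  have h1 : p ^ (N.factorization p) ∣ N := Nat.ordProj_dvd N p
  exact (hp.pow_dvd_iff_le_factorization hM.ne').mp (h p _ hp h1)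

/-- If the prime divisors of `N` are among `2, 3, 5, 7` and the exponents are bounded, then
`N` divides the corresponding product. -/
theorem dvd_of_prime_bounds (N : ℕ) (hN : 0 < N) (a b c d : ℕ)
    (hpr : ∀ p, p.Prime → p ∣ N → p = 2 ∨ p = 3 ∨ p = 5 ∨ p = 7)
    (h2 : ¬ 2 ^ (a + 1) ∣ N) (h3 : ¬ 3 ^ (b + 1) ∣ N) (h5 : ¬ 5 ^ (c + 1) ∣ N)
    (h7 : ¬ 7 ^ (d + 1) ∣ N) : N ∣ 2 ^ a * 3 ^ b * 5 ^ c * 7 ^ d := by
  apply dvd_of_prime_pow_dvd N _ hN (by positivity)
  intro p k hp hk
  rcases Nat.eq_zero_or_pos k with rfl | hkpos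
  · simp
  have hpN : p ∣ N := (dvd_pow_self p hkpos.ne').trans hk
  have key : ∀ (q e : ℕ), p = q → ¬ q ^ (e + 1) ∣ N → p ^ k ∣ q ^ e := by
    intro q e hq hne
    subst hq
    apply pow_dvd_pow
    by_contra hcon
    exact hne ((pow_dvd_pow p (by omega)).trans hk)
  rcases hpr p hp hpN with h | h | h | h
  · exact (key 2 a h h2).trans (Dvd.intro (3 ^ b * 5 ^ c * 7 ^ d) (by ring))
  · exact (key 3 b h h3).trans (Dvd.intro (2 ^ a * 5 ^ c * 7 ^ d) (by ring))
  · exact (key 5 c h h5).trans (Dvd.intro (2 ^ a * 3 ^ b * 7 ^ d) (by ring))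
  · exact (key 7 d h h7).trans (Dvd.intro (2 ^ a * 3 ^ b * 5 ^ c) (by ring))

/-! ### General facts on the numbers of elements of given order -/

theorem s_one {G : Type*} [Group G] [Finite G] : Nat.card {g : G // orderOf g = 1} = 1 := by
  have : Unique {g : G // orderOf g = 1} :=
    ⟨⟨⟨1, orderOf_one⟩⟩, fun ⟨g, hg⟩ => Subtype.ext (orderOf_eq_one_iff.mp hg)⟩
  exact Nat.card_unique

theorem s_totient {G : Type*} [Group G] [Finite G] (m : ℕ) :
    Nat.totient m ∣ Nat.card {g : G // orderOf g = m} := by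
  have h := Cfsg.Agent.S3993.dvd_ncard_of_zpowers_closed (G := G) (Nat.totient m)
    {g : G | orderOf g = m}
    (fun g hg h hh => by
      show orderOf h = m
      rw [← Nat.card_zpowers, hh, Nat.card_zpowers]
      exact hg)
    (fun g hg => by rw [show orderOf g = m from hg])
  exact h

theorem card_pow_eq_one {G : Type*} [Group G] [Finite G] (m : ℕ) (hm : 0 < m) :
    Nat.card {g : G // g ^ m = 1} = ∑ d ∈ m.divisors, Nat.card {g : G // orderOf g = d} := by
  classical
  have := Fintype.ofFinite G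
  have h1 : Nat.card {g : G // g ^ m = 1} = (Finset.univ.filter (fun g : G => g ^ m = 1)).card := by
    rw [Nat.card_eq_fintype_card, Fintype.card_subtype]
  have h2 : ∀ d : ℕ, Nat.card {g : G // orderOf g = d} =
      (Finset.univ.filter (fun g : G => orderOf g = d)).card := by
    intro d
    rw [Nat.card_eq_fintype_card, Fintype.card_subtype]
  rw [h1]
  rw [Finset.card_eq_sum_card_fiberwise (f := fun g : G => orderOf g) (t := m.divisors)]
  · apply Finset.sum_congr rfl
    intro d hd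
    rw [h2 d]
    congr 1
    ext g
    simp only [Finset.mem_filter, Finset.mem_univ, true_and]
    constructor
    · exact fun h => h.2
    · intro h
      refine ⟨?_, h⟩
      rw [← orderOf_dvd_iff_pow_eq_one, h]
      exact Nat.dvd_of_mem_divisors hd
  · intro g hg
    simp only [Finset.coe_filter, Finset.mem_univ, true_and, Set.mem_ofPred_eq] at hg
    simp only [Finset.mem_coe, Nat.mem_divisors]
    exact ⟨orderOf_dvd_of_pow_eq_one hg, hm.ne'⟩

theorem s_frob {G : Type*} [Group G] [Finite G] (m : ℕ) (hm : m ∣ Nat.card G) :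
    m ∣ ∑ d ∈ m.divisors, Nat.card {g : G // orderOf g = d} := by
  have hpos : 0 < m := Nat.pos_of_dvd_of_pos hm Nat.card_pos
  rw [← card_pow_eq_one m hpos]
  exact Cfsg.Agent.S3993.result m hm

theorem s_sum {G : Type*} [Group G] [Finite G] :
    Nat.card G = ∑ d ∈ (Nat.card G).divisors, Nat.card {g : G // orderOf g = d} := by
  rw [← card_pow_eq_one (Nat.card G) Nat.card_pos]
  exact (Nat.card_congr (Equiv.subtypeUnivEquiv (fun g : G => pow_card_eq_one'))).symm

theorem exists_of_s_ne_zero {G : Type*} [Group G] [Finite G] (m : ℕ)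
    (h : Nat.card {g : G // orderOf g = m} ≠ 0) : ∃ g : G, orderOf g = m := by
  by_contra hcon
  have : IsEmpty {g : G // orderOf g = m} := ⟨fun ⟨g, hg⟩ => hcon ⟨g, hg⟩⟩
  exact h Nat.card_of_isEmpty

theorem s_ne_zero_of_exists {G : Type*} [Group G] [Finite G] (m : ℕ) (g : G)
    (hg : orderOf g = m) : Nat.card {g : G // orderOf g = m} ≠ 0 := by
  have : Nonempty {x : G // orderOf x = m} := ⟨⟨g, hg⟩⟩
  exact Nat.card_pos.ne'

theorem s_div {G : Type*} [Group G] [Finite G] (m d : ℕ)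
    (h : Nat.card {g : G // orderOf g = m} ≠ 0) (hd : d ∣ m) :
    Nat.card {g : G // orderOf g = d} ≠ 0 := by
  obtain ⟨g, hg⟩ := exists_of_s_ne_zero m h
  have hm0 : m ≠ 0 := by
    rw [← hg]
    exact (orderOf_pos g).ne'
  obtain ⟨e, rfl⟩ := hd
  have he0 : e ≠ 0 := fun h0 => hm0 (by rw [h0, mul_zero])
  have hd0 : d ≠ 0 := fun h0 => hm0 (by rw [h0, zero_mul])
  apply s_ne_zero_of_exists d (g ^ e)
  rw [orderOf_pow_of_dvd he0 (by rw [hg]; exact Dvd.intro_left d rfl), hg]
  exact Nat.mul_div_cancel d (Nat.pos_of_ne_zero he0)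

theorem s_ord {G : Type*} [Group G] [Finite G] (m : ℕ)
    (h : Nat.card {g : G // orderOf g = m} ≠ 0) : m ∣ Nat.card G := by
  obtain ⟨g, hg⟩ := exists_of_s_ne_zero m h
  rw [← hg]
  exact orderOf_dvd_natCard g

theorem s_prime {G : Type*} [Group G] [Finite G] (p : ℕ) (hp : p.Prime) (h : p ∣ Nat.card G) :
    Nat.card {g : G // orderOf g = p} ≠ 0 := by
  have : Fact p.Prime := ⟨hp⟩
  obtain ⟨x, hx⟩ := exists_prime_orderOf_dvd_card' p h
  exact s_ne_zero_of_exists p x hx

end Cfsg.Agent.Lib.Helper11.NseBase
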