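import Mathlib

set_option autoImplicit false

namespace Cfsg.Agent.Lib.Helper11.NseEnd

/-- a group of order 12 with a non-normal subgroup of order 3 is `A₄` -/
theorem recog12 {K : Type*} [Group K] [Finite K] (hK : Nat.card K = 12) (T : Subgroup K)
    (hT : Nat.card T = 3) (hTn : ¬ T.Normal) : Nonempty (K ≃* alternatingGroup (Fin 4)) := by
  classical
  have hcore : T.normalCore = ⊥ := by
    have hle := Subgroup.normalCore_le T
    have hdvd := Subgroup.card_dvd_of_le hle
    rw [hT] at hdvd
    rcases (Nat.dvd_prime Nat.prime_three).1 hdvd with h | h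
    · exact Subgroup.card_eq_one.1 h
    · exfalso
      apply hTn
      have : T.normalCore = T := Subgroup.eq_of_le_of_card_ge hle (by rw [h, hT])
      rw [← this]
      exact Subgroup.normalCore_normal T
  have hinj : Function.Injective (MulAction.toPermHom K (K ⧸ T)) := by
    rw [← MonoidHom.ker_eq_bot_iff, ← Subgroup.normalCore_eq_ker, hcore]
  have hquot : Nat.card (K ⧸ T) = 4 := by
    have := Subgroup.card_eq_card_quotient_mul_card_subgroup T
    rw [hK, hT] at this
    omega
  let e : (K ⧸ T) ≃ Fin 4 := Finite.equivFinOfCardEq hquot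
  let ψ : K →* Equiv.Perm (Fin 4) :=
    (e.permCongrHom : Equiv.Perm (K ⧸ T) ≃* Equiv.Perm (Fin 4)).toMonoidHom.comp
      (MulAction.toPermHom K (K ⧸ T))
  have hψ : Function.Injective ψ := by
    intro x y hxy
    apply hinj
    exact (e.permCongrHom).injective hxy
  have hcard : Nat.card ψ.range = 12 := by
    rw [← Nat.card_congr (MonoidHom.ofInjective hψ).toEquiv, hK]
  have hidx : ψ.range.index = 2 := by
    have h1 := Subgroup.card_mul_index ψ.range
    rw [hcard, Nat.card_perm, Nat.card_eq_fintype_card, Fintype.card_fin] at h1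
    have : Nat.factorial 4 = 24 := by decide
    omega
  have hrange := Equiv.Perm.eq_alternatingGroup_of_index_eq_two hidx
  exact ⟨(MonoidHom.ofInjective hψ).trans (MulEquiv.subgroupCongr hrange)⟩

/-- An element whose order is prime to the index of a normal subgroup lies in it. -/
theorem mem_of_coprime_index {G : Type*} [Group G] [Finite G] (N : Subgroup G) [N.Normal]
    (x : G) (h : Nat.Coprime (orderOf x) N.index) : x ∈ N := by
  rw [← QuotientGroup.eq_one_iff]
  have h1 : orderOf ((QuotientGroup.mk' N) x) ∣ orderOf x := orderOf_map_dvd (QuotientGroup.mk' N) x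
  have h2 : orderOf ((QuotientGroup.mk' N) x) ∣ N.index := by
    rw [Subgroup.index_eq_card]
    exact orderOf_dvd_natCard _
  have h3 : orderOf ((QuotientGroup.mk' N) x) = 1 := Nat.eq_one_of_dvd_coprimes h h1 h2
  exact orderOf_eq_one_iff.mp h3

theorem nse_end4 {G : Type*} [Group G] [Finite G] (hN : Nat.card G = 12)
    (h3 : Nat.card {g : G // orderOf g = 3} = 8) :
    Nonempty (G ≃* ↥(alternatingGroup (Fin 4))) := by
  have : Fact (Nat.Prime 3) := ⟨Nat.prime_three⟩
  obtain ⟨x, hx⟩ := exists_prime_orderOf_dvd_card' (G := G) 3 (by rw [hN]; norm_num)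
  have hT : Nat.card (Subgroup.zpowers x) = 3 := by rw [Nat.card_zpowers, hx]
  refine recog12 hN (Subgroup.zpowers x) hT ?_
  intro hnorm
  have hidx : (Subgroup.zpowers x).index = 4 := by
    have := Subgroup.card_mul_index (Subgroup.zpowers x)
    rw [hT, hN] at this
    omega
  have hsub : {g : G | orderOf g = 3} ⊆ ((Subgroup.zpowers x : Subgroup G) : Set G) \ {1} := by
    intro g hg
    have hg' : orderOf g = 3 := hg
    refine ⟨mem_of_coprime_index _ g (by rw [hg', hidx]; decide), ?_⟩
    intro h1
    rw [Set.mem_singleton_iff] at h1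
    rw [h1, orderOf_one] at hg'
    omega
  have hle := Set.ncard_le_ncard hsub (Set.toFinite _)
  have h2 : (((Subgroup.zpowers x : Subgroup G) : Set G) \ {1}).ncard = 2 := by
    rw [Set.ncard_sdiff_singleton_of_mem (one_mem _)]
    have : ((Subgroup.zpowers x : Subgroup G) : Set G).ncard = 3 := hT
    rw [this]
  have h8 : {g : G | orderOf g = 3}.ncard = 8 := h3
  omega

/-- If `x` with `x ^ q = 1` (`q` prime) normalizes a finite subgroup `Q` whose order is not
`≡ 1` mod `q`, then `x` commutes with a nontrivial element of `Q`. -/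
theorem exists_commute_of_normalizes {G : Type*} [Group G] (Q : Subgroup G) [Finite Q] (x : G)
    (q : ℕ) [Fact q.Prime] (hx : x ^ q = 1) (hn : ∀ y ∈ Q, x * y * x⁻¹ ∈ Q)
    (hQ : Nat.card Q % q ≠ 1 % q) : ∃ y ∈ Q, y ≠ 1 ∧ Commute x y := by
  classical
  have := Fintype.ofFinite Q
  let f : Function.End Q := fun y => ⟨x * y * x⁻¹, hn y y.2⟩
  have hpow : ∀ k : ℕ, ∀ y : Q, ((f ^ k) y : G) = x ^ k * y * (x ^ k)⁻¹ := by
    intro k
    induction k with
    | zero =>
      intro y
      rw [pow_zero, pow_zero, one_mul, inv_one, mul_one]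
      rfl
    | succ k ih =>
      intro y
      have h1 : (f ^ (k + 1)) y = (f ^ k) (f y) := by rw [pow_succ]; rfl
      rw [h1, ih (f y)]
      show x ^ k * (x * y * x⁻¹) * (x ^ k)⁻¹ = x ^ (k + 1) * y * (x ^ (k + 1))⁻¹
      rw [pow_succ]
      group
  have hf : f ^ q ^ 1 = 1 := by
    funext y
    apply Subtype.ext
    rw [pow_one, hpow, hx, one_mul, inv_one, mul_one]
    rfl
  have hmod := Equiv.Perm.card_fixedPoints_modEq (p := q) (n := 1) hf
  rw [← Nat.card_eq_fintype_card, ← Nat.card_eq_fintype_card] at hmod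
  by_contra hcon
  push Not at hcon
  have hfix : Nat.card (Function.fixedPoints f) = 1 := by
    rw [Nat.card_eq_one_iff_unique]
    refine ⟨⟨?_⟩, ⟨⟨1, ?_⟩⟩⟩
    · rintro ⟨y, hy⟩ ⟨z, hz⟩
      have key : ∀ w : Q, f w = w → w = 1 := by
        intro w hw
        by_contra hne
        have hw' : x * (w : G) * x⁻¹ = w := congrArg Subtype.val hw
        apply hcon w w.2 (fun h => hne (Subtype.ext h))
        show x * (w : G) = w * x
        calc x * (w : G) = (x * w * x⁻¹) * x := by group
          _ = w * x := by rw [hw']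
      apply Subtype.ext
      show y = z
      rw [key y hy, key z hz]
    · show f 1 = 1
      apply Subtype.ext
      show x * ((1 : Q) : G) * x⁻¹ = ((1 : Q) : G)
      simp
  rw [hfix] at hmod
  exact hQ hmod

/-- Simplicity from counts of elements of orders 3 and 5. -/
theorem simple_of_counts {G : Type*} [Group G] [Finite G] (K s3 s5 : ℕ)
    (hK : Nat.card G = K)
    (h3 : Nat.card {g : G // orderOf g = 3} = s3) (h5 : Nat.card {g : G // orderOf g = 5} = s5)
    (hord : ∀ g : G, orderOf g ≤ 5)
    (h5K : 5 ∣ K) (h25 : ¬ 25 ∣ K) (hK1 : 1 < K)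
    (hA : ∀ n, n ∣ K → 5 ∣ n → 1 + s5 ≤ n → n < K →
      (Nat.Coprime 3 (K / n) ∧ n < 1 + s5 + s3))
    (hB : ∀ p k, p.Prime → p ≠ 5 → 0 < k → p ^ k ∣ K → p ^ k % 5 ≠ 1) :
    IsSimpleGroup G := by
  have hnt : Nontrivial G := by
    rw [← Finite.one_lt_card_iff_nontrivial, hK]
    exact hK1
  refine { toNontrivial := hnt, eq_bot_or_eq_top_of_normal := ?_ }
  intro N hNn
  by_contra hcon
  push Not at hcon
  obtain ⟨hbot, htop⟩ := hcon
  have hn_dvd : Nat.card N ∣ K := hK ▸ Subgroup.card_subgroup_dvd_card N
  have hn_lt : Nat.card N < K := by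
    rw [← hK]
    rcases lt_or_ge (Nat.card N) (Nat.card G) with h | h
    · exact h
    · exact absurd (Subgroup.eq_top_of_card_eq N
        (le_antisymm (Subgroup.card_le_card_group N) h)) htop
  have hn_gt : 1 < Nat.card N := (Subgroup.one_lt_card_iff_ne_bot N).mpr hbot
  have hidx : Nat.card N * N.index = K := by
    rw [← hK]
    exact Subgroup.card_mul_index N
  have hfive : Fact (Nat.Prime 5) := ⟨by norm_num⟩
  have e5 : {g : G | orderOf g = 5}.ncard = s5 := h5
  have e3 : {g : G | orderOf g = 3}.ncard = s3 := h3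
  have eN : (N : Set G).ncard = Nat.card N := rfl
  by_cases h5n : 5 ∣ Nat.card N
  · have h5i : ¬ 5 ∣ N.index := by
      intro h
      apply h25
      rw [← hidx]
      exact (mul_dvd_mul h5n h : 5 * 5 ∣ _)
    have hsub5 : {g : G | orderOf g = 5} ⊆ (N : Set G) := by
      intro g hg
      apply mem_of_coprime_index N g
      rw [show orderOf g = 5 from hg]
      exact (Nat.Prime.coprime_iff_not_dvd (by norm_num)).mpr h5i
    have h1N : ({1} : Set G) ⊆ (N : Set G) := by
      intro g hg
      rw [Set.mem_singleton_iff] at hg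
      rw [hg]
      exact N.one_mem
    have hdisj5 : Disjoint {g : G | orderOf g = 5} ({1} : Set G) := by
      rw [Set.disjoint_singleton_right]
      intro h
      have h' : orderOf (1 : G) = 5 := h
      rw [orderOf_one] at h'
      omega
    have hc5 : 1 + s5 ≤ Nat.card N := by
      have hle := Set.ncard_le_ncard (Set.union_subset hsub5 h1N) (Set.toFinite _)
      rw [Set.ncard_union_eq hdisj5 (Set.toFinite _) (Set.toFinite _),
        Set.ncard_singleton] at hle
      omega
    obtain ⟨hcop, hlt⟩ := hA _ hn_dvd h5n hc5 hn_lt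
    have hKn : K / Nat.card N = N.index := by
      rw [← hidx]
      exact Nat.mul_div_cancel_left _ (by omega)
    rw [hKn] at hcop
    have hsub3 : {g : G | orderOf g = 3} ⊆ (N : Set G) := by
      intro g hg
      apply mem_of_coprime_index N g
      rw [show orderOf g = 3 from hg]
      exact hcop
    have hdisj3 : Disjoint {g : G | orderOf g = 3} ({g : G | orderOf g = 5} ∪ ({1} : Set G)) := by
      rw [Set.disjoint_left]
      intro g hg hg'
      have h3' : orderOf g = 3 := hg
      rcases hg' with h | h
      · have h5' : orderOf g = 5 := h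
        omega
      · rw [Set.mem_singleton_iff] at h
        rw [h, orderOf_one] at h3'
        omega
    have hle := Set.ncard_le_ncard (Set.union_subset hsub3 (Set.union_subset hsub5 h1N))
      (Set.toFinite _)
    rw [Set.ncard_union_eq hdisj3 (Set.toFinite _) (Set.toFinite _),
      Set.ncard_union_eq hdisj5 (Set.toFinite _) (Set.toFinite _), Set.ncard_singleton] at hle
    omega
  · obtain ⟨p, hp, hpn⟩ := Nat.exists_prime_and_dvd (by omega : Nat.card N ≠ 1)
    have hp5 : p ≠ 5 := by
      rintro rfl
      exact h5n hpn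
    have : Fact p.Prime := ⟨hp⟩
    obtain ⟨Q⟩ : Nonempty (Sylow p N) := inferInstance
    have hQcard : Nat.card Q = p ^ (Nat.card N).factorization p := Sylow.card_eq_multiplicity Q
    have hkpos : 0 < (Nat.card N).factorization p :=
      hp.factorization_pos_of_dvd (by omega) hpn
    have hQ'card : Nat.card ((Q : Subgroup N).map N.subtype) =
        p ^ (Nat.card N).factorization p := by
      rw [← hQcard]
      exact Subgroup.card_map_of_injective N.subtype_injective
    have hpkK : p ^ (Nat.card N).factorization p ∣ K := by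
      refine Dvd.dvd.trans ?_ hn_dvd
      rw [← hQcard]
      exact Subgroup.card_subgroup_dvd_card (Q : Subgroup N)
    have hmod := hB p _ hp hp5 hkpos hpkK
    have hfrat := Sylow.normalizer_sup_eq_top Q
    have h5idx : 5 ∣ N.index := by
      have : 5 ∣ Nat.card N * N.index := hidx ▸ h5K
      exact ((Nat.Prime.dvd_mul (by norm_num)).mp this).resolve_left h5n
    have hdvd : N.index ∣ Nat.card (Subgroup.normalizer (((Q : Subgroup N).map N.subtype : Subgroup G) : Set G)) := by
      have h1 : N.relIndex (Subgroup.normalizer (((Q : Subgroup N).map N.subtype : Subgroup G) : Set G) ⊔ N) =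
          N.relIndex (Subgroup.normalizer (((Q : Subgroup N).map N.subtype : Subgroup G) : Set G)) := Subgroup.relIndex_sup_right _ _
      rw [hfrat, Subgroup.relIndex_top_right] at h1
      rw [h1]
      exact Subgroup.relIndex_dvd_card _ _
    obtain ⟨a, ha⟩ := exists_prime_orderOf_dvd_card'
      (G := Subgroup.normalizer (((Q : Subgroup N).map N.subtype : Subgroup G) : Set G)) 5 (h5idx.trans hdvd)
    have hx5 : orderOf (a : G) = 5 := by
      rw [Subgroup.orderOf_coe]
      exact ha
    have hnorm : ∀ y ∈ (Q : Subgroup N).map N.subtype,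
        (a : G) * y * (a : G)⁻¹ ∈ (Q : Subgroup N).map N.subtype :=
      fun y hy => (Subgroup.mem_normalizer_iff.mp a.2 y).mp hy
    obtain ⟨y, hyQ, hy1, hcomm⟩ := exists_commute_of_normalizes
      ((Q : Subgroup N).map N.subtype) (a : G) 5
      (by rw [← hx5]; exact pow_orderOf_eq_one _) hnorm (by rw [hQ'card]; simpa using hmod)
    have hyo : orderOf y ∣ p ^ (Nat.card N).factorization p := by
      rw [← hQ'card]
      have := orderOf_dvd_natCard (⟨y, hyQ⟩ : ((Q : Subgroup N).map N.subtype))
      rwa [Subgroup.orderOf_mk] at this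
    have hcop : Nat.Coprime (orderOf (a : G)) (orderOf y) := by
      rw [hx5]
      apply Nat.Coprime.coprime_dvd_right hyo
      exact Nat.Coprime.pow_right _ ((Nat.coprime_primes (by norm_num) hp).mpr (Ne.symm hp5))
    have hmul := hcomm.orderOf_mul_eq_mul_orderOf_of_coprime hcop
    have hy2 : 2 ≤ orderOf y := by
      have h0 := orderOf_pos y
      have h1 : orderOf y ≠ 1 := fun h => hy1 (orderOf_eq_one_iff.mp h)
      omega
    have hle := hord ((a : G) * y)
    rw [hmul, hx5] at hle
    omega

end Cfsg.Agent.Lib.Helper11.NseEnd
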