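import Mathlib
import Cfsg.Agent.Lib.Helper11.NseEnd
import Cfsg.Agent.S0494
import Cfsg.Agent.S0497

set_option autoImplicit false

namespace Cfsg.Agent.Lib.Helper11.NseFin

open Cfsg.Agent.Lib.Helper11.NseEnd

theorem prime_pow_bound (K p k a b : ℕ) (hp : p.Prime) (hp5 : p ≠ 5) (hk : 0 < k)
    (hdvd : p ^ k ∣ K)
    (hpr : ∀ q, q.Prime → q ∣ K → q = 2 ∨ q = 3 ∨ q = 5)
    (h2 : ¬ 2 ^ (a + 1) ∣ K) (h3 : ¬ 3 ^ (b + 1) ∣ K) :
    (p = 2 ∧ k ≤ a) ∨ (p = 3 ∧ k ≤ b) := by
  have hpK : p ∣ K := (dvd_pow_self p hk.ne').trans hdvd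
  rcases hpr p hp hpK with h | h | h
  · left
    refine ⟨h, ?_⟩
    subst h
    by_contra hcon
    exact h2 ((pow_dvd_pow 2 (by omega)).trans hdvd)
  · right
    refine ⟨h, ?_⟩
    subst h
    by_contra hcon
    exact h3 ((pow_dvd_pow 3 (by omega)).trans hdvd)
  · exact absurd h hp5

theorem primes_60 (q : ℕ) (hq : q.Prime) (h : q ∣ 60) : q = 2 ∨ q = 3 ∨ q = 5 := by
  have h1 : q ∣ 2 ^ 2 * 3 * 5 := by norm_num; exact h
  rcases (Nat.Prime.dvd_mul hq).mp h1 with h2 | h2
  · rcases (Nat.Prime.dvd_mul hq).mp h2 with h3 | h3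
    · left
      exact (Nat.prime_dvd_prime_iff_eq hq Nat.prime_two).mp (hq.dvd_of_dvd_pow h3)
    · right; left
      exact (Nat.prime_dvd_prime_iff_eq hq Nat.prime_three).mp h3
  · right; right
    exact (Nat.prime_dvd_prime_iff_eq hq Nat.prime_five).mp h2

theorem primes_360 (q : ℕ) (hq : q.Prime) (h : q ∣ 360) : q = 2 ∨ q = 3 ∨ q = 5 := by
  have h1 : q ∣ 2 ^ 3 * 3 ^ 2 * 5 := by norm_num; exact h
  rcases (Nat.Prime.dvd_mul hq).mp h1 with h2 | h2
  · rcases (Nat.Prime.dvd_mul hq).mp h2 with h3 | h3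
    · left
      exact (Nat.prime_dvd_prime_iff_eq hq Nat.prime_two).mp (hq.dvd_of_dvd_pow h3)
    · right; left
      exact (Nat.prime_dvd_prime_iff_eq hq Nat.prime_three).mp (hq.dvd_of_dvd_pow h3)
  · right; right
    exact (Nat.prime_dvd_prime_iff_eq hq Nat.prime_five).mp h2

theorem nse_end5 {G : Type*} [Group G] [Finite G] (hN : Nat.card G = 60)
    (h3 : Nat.card {g : G // orderOf g = 3} = 20) (h5 : Nat.card {g : G // orderOf g = 5} = 24)
    (hord : ∀ g : G, orderOf g = 1 ∨ orderOf g = 2 ∨ orderOf g = 3 ∨ orderOf g = 5) :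
    Nonempty (G ≃* ↥(alternatingGroup (Fin 5))) := by
  have hs : IsSimpleGroup G := by
    refine simple_of_counts 60 20 24 hN h3 h5 (fun g => by rcases hord g with h | h | h | h <;> omega)
      (by norm_num) (by norm_num) (by norm_num) ?_ ?_
    · intro n h1 h2 h3 h4
      obtain ⟨k, hk⟩ := h1
      have hk2 : k = 2 := by
        have : k ≤ 2 := by nlinarith
        have : 2 ≤ k := by nlinarith
        omega
      subst hk2
      have hn : n = 30 := by omega
      subst hn
      exact ⟨by decide, by norm_num⟩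
    · intro p k hp hp5 hk hdvd
      rcases prime_pow_bound 60 p k 2 1 hp hp5 hk hdvd primes_60 (by norm_num) (by norm_num)
        with ⟨rfl, hk'⟩ | ⟨rfl, hk'⟩
      · interval_cases k <;> norm_num
      · interval_cases k <;> norm_num
  exact Cfsg.Agent.S0494.result hN

theorem nse_end6 {G : Type*} [Group G] [Finite G] (hN : Nat.card G = 360)
    (h3 : Nat.card {g : G // orderOf g = 3} = 80) (h5 : Nat.card {g : G // orderOf g = 5} = 144)
    (hord : ∀ g : G, orderOf g = 1 ∨ orderOf g = 2 ∨ orderOf g = 3 ∨ orderOf g = 4 ∨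
      orderOf g = 5) :
    Nonempty (G ≃* ↥(alternatingGroup (Fin 6))) := by
  have hs : IsSimpleGroup G := by
    refine simple_of_counts 360 80 144 hN h3 h5
      (fun g => by rcases hord g with h | h | h | h | h <;> omega)
      (by norm_num) (by norm_num) (by norm_num) ?_ ?_
    · intro n h1 h2 h3 h4
      obtain ⟨k, hk⟩ := h1
      have hk2 : k = 2 := by
        have : k ≤ 2 := by nlinarith
        have : 2 ≤ k := by nlinarith
        omega
      subst hk2
      have hn : n = 180 := by omega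
      subst hn
      exact ⟨by decide, by norm_num⟩
    · intro p k hp hp5 hk hdvd
      rcases prime_pow_bound 360 p k 3 2 hp hp5 hk hdvd primes_360 (by norm_num) (by norm_num)
        with ⟨rfl, hk'⟩ | ⟨rfl, hk'⟩
      · interval_cases k <;> norm_num
      · interval_cases k <;> norm_num
  exact Cfsg.Agent.S0497.result hN

end Cfsg.Agent.Lib.Helper11.NseFin
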