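import Cfsg.Agent.Lib.Helper22.PTDefs
import Cfsg.Agent.Lib.Helper22.PTAux

/-!
# S4705 project (helper22, "PT"): piece FRAT (helper11)
-/

set_option autoImplicit false

namespace Cfsg.Agent.Lib.Helper11.PT

open Cfsg Cfsg.Agent.Lib.Helper22.BFD Cfsg.Agent.Lib.Helper22.PT
open scoped ComplexConjugate

universe u

variable {G : Type u} [Group G] [Fintype G]

/-- PIECE FRAT -/
theorem frat (p : ℕ) [Fact p.Prime] (z : G) (ζ : G → ℂ) (h : Hyp G p z ζ) (hl : Loc G p z ζ)
    (hinvL : ∃ n : Subgroup.normalClosure ({z} : Set G), (n : G) * z * (n : G)⁻¹ = z⁻¹)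
    (g : G) : ∃ l ∈ Subgroup.normalClosure ({z} : Set G), ∃ c ∈ Subgroup.center G,
      g = l * c := by
  have hp : p.Prime := Fact.out
  have : NeZero p := ⟨hp.ne_zero⟩
  set L : Subgroup G := Subgroup.normalClosure ({z} : Set G) with hLdef
  have hzL : z ∈ L := Subgroup.subset_normalClosure (Set.mem_singleton z)
  obtain ⟨Q, hQ⟩ := aux_sylow p z h.ord h.sq
  have hQL : (Q : Subgroup G) ≤ L := by
    rw [hQ]
    exact (Subgroup.zpowers_le).mpr hzL
  have hfr := Sylow.normalizer_sup_eq_top' Q hQL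
  have hg : g ∈ (⊤ : Subgroup G) := Subgroup.mem_top g
  rw [← hfr, ← SetLike.mem_coe, Subgroup.mul_normal] at hg
  obtain ⟨a, ha, l, hl', rfl⟩ := Set.mem_mul.mp hg
  have ha' : a ∈ Subgroup.normalizer ((Q : Subgroup G) : Set G) := ha
  have hl'' : l ∈ L := hl'
  -- a normalizes ⟨z⟩
  have hazQ : a * z * a⁻¹ ∈ (Q : Subgroup G) := by
    have hzQ : z ∈ (Q : Subgroup G) := by
      rw [hQ]
      exact Subgroup.mem_zpowers z
    exact (Subgroup.mem_normalizer_iff.mp ha' z).mp hzQ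
  rw [hQ, Subgroup.mem_zpowers_iff] at hazQ
  obtain ⟨i, hi⟩ := hazQ
  rw [aux_zpow_val p z h.ord i] at hi
  have hconj : IsConj (z ^ ((i : ZMod p).val)) z := by
    rw [isConj_iff]
    refine ⟨a⁻¹, ?_⟩
    rw [hi]
    group
  -- an element m of L with m * a centralizing z
  obtain ⟨m, hmL, hm⟩ : ∃ m ∈ L, (m * a) * z = z * (m * a) := by
    rcases hl.cnj _ hconj with h1 | h1
    · refine ⟨1, L.one_mem, ?_⟩
      have h2 : z ^ ((i : ZMod p).val) = z := by
        have h3 := aux_pow_congr p z h.ord ((i : ZMod p).val) 1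
          (by rw [ZMod.natCast_zmod_val, h1, Nat.cast_one])
        rw [h3, pow_one]
      rw [h2] at hi
      rw [one_mul]
      calc a * z = (a * z * a⁻¹) * a := by group
        _ = z * a := by rw [← hi]
    · obtain ⟨n, hn⟩ := hinvL
      refine ⟨(n : G), n.2, ?_⟩
      have h2 : z ^ ((i : ZMod p).val) = z⁻¹ := by
        have h3 := aux_zpow_val p z h.ord (-1)
        rw [zpow_neg, zpow_one] at h3
        rw [h3]
        congr 2
        rw [h1]
        push_cast
        rfl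
      rw [h2] at hi
      have h4 : (n : G) * z⁻¹ * (n : G)⁻¹ = z := by
        have h5 : ((n : G) * z * (n : G)⁻¹)⁻¹ = (z⁻¹)⁻¹ := by rw [hn]
        rw [inv_inv] at h5
        calc (n : G) * z⁻¹ * (n : G)⁻¹ = ((n : G) * z * (n : G)⁻¹)⁻¹ := by group
          _ = z := h5
      calc (n : G) * a * z = (n : G) * (a * z * a⁻¹) * (n : G)⁻¹ * ((n : G) * a) := by group
        _ = z * ((n : G) * a) := by rw [← hi, h4]
  obtain ⟨t, c, hc, hma⟩ := cdec p z ζ h hl (m * a) hm
  have hcl : c * l = l * c := (Subgroup.mem_center_iff.mp hc l).symm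
  refine ⟨m⁻¹ * z ^ t.val * l, L.mul_mem (L.mul_mem (L.inv_mem hmL) (L.pow_mem hzL _)) hl'', c, hc, ?_⟩
  have ha2 : a = m⁻¹ * (z ^ t.val * c) := by
    rw [← hma]
    group
  rw [ha2]
  calc m⁻¹ * (z ^ t.val * c) * l = m⁻¹ * z ^ t.val * (c * l) := by group
    _ = m⁻¹ * z ^ t.val * (l * c) := by rw [hcl]
    _ = m⁻¹ * z ^ t.val * l * c := by group

end Cfsg.Agent.Lib.Helper11.PT
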