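import Cfsg.Agent.Lib.Helper96.PiDefs
import Cfsg.Agent.Lib.Helper30.O72WITT

/-!
Project PM (S5991, helper96), piece TRANSF (helper11): an isometry `W ≃ W₀` extends (Witt) to a
global isometry `g` with `g W = W₀`, and `g` is compatible with orthogonal complements,
intersections and spans.
-/

set_option autoImplicit false
set_option linter.unusedSectionVars false
set_option linter.unusedVariables false

namespace Cfsg.Agent.Lib.Helper11.Pm

open Module Cfsg.Agent.Lib.Helper96.Sp Cfsg.Agent.Lib.Helper96.Pi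

universe u

variable {F : Type u} [Field F] [Fintype F] {V : Type u} [AddCommGroup V] [Module F V]
  [FiniteDimensional F V] {B : LinearMap.BilinForm F V}

/-- a bijective isometry maps orthogonal complements to orthogonal complements -/
theorem transf_map_orth (g : V ≃ₗ[F] V) (hg : Isom B (g : V →ₗ[F] V)) (S : Submodule F V) :
    (B.orthogonal S).map (g : V →ₗ[F] V) = B.orthogonal (S.map (g : V →ₗ[F] V)) := by
  ext y
  rw [Submodule.mem_map, mem_perp_iff]
  constructor
  · rintro ⟨x, hx, rfl⟩ s' hs'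
    obtain ⟨s, hs, rfl⟩ := Submodule.mem_map.1 hs'
    rw [hg s x]
    exact mem_perp_iff.1 hx s hs
  · intro h
    refine ⟨g.symm y, ?_, ?_⟩
    · rw [mem_perp_iff]
      intro s hs
      have h1 := h (g s) (Submodule.mem_map.2 ⟨s, hs, rfl⟩)
      have h2 := hg s (g.symm y)
      have h3 : (g : V →ₗ[F] V) (g.symm y) = y := g.apply_symm_apply y
      rw [h3] at h2
      rw [← h2]
      exact h1
    · exact g.apply_symm_apply y

-- PIECE TRANSF
theorem transfer_struct (hS : B.IsSymm) (h2 : (2 : F) ≠ 0) (hN : ND B ⊤)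
    (W W₀ : Submodule F V) (hiso : Iso B W W₀) :
    ∃ g : V ≃ₗ[F] V, Isom B (g : V →ₗ[F] V) ∧ W.map (g : V →ₗ[F] V) = W₀ ∧
      (B.orthogonal W).map (g : V →ₗ[F] V) = B.orthogonal W₀ ∧
      ∀ (X : Submodule F V) (w : V),
        (X ⊓ B.orthogonal (Submodule.span F {w})).map (g : V →ₗ[F] V)
          = X.map (g : V →ₗ[F] V) ⊓ B.orthogonal (Submodule.span F {g w}) := by
  obtain ⟨e, he⟩ := hiso
  obtain ⟨g, hg, hge⟩ := Cfsg.Agent.Lib.Helper98.O72.witt_ext hS h2 hN W W₀ e he
  have hmap : W.map (g : V →ₗ[F] V) = W₀ := by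
    apply le_antisymm
    · rintro y ⟨x, hx, rfl⟩
      have h1 := hge ⟨x, hx⟩
      have h3 : (g : V →ₗ[F] V) x = ((e ⟨x, hx⟩ : W₀) : V) := h1
      rw [h3]
      exact (e ⟨x, hx⟩).2
    · intro y hy
      refine Submodule.mem_map.2 ⟨((e.symm ⟨y, hy⟩ : W) : V), (e.symm ⟨y, hy⟩).2, ?_⟩
      have h1 := hge (e.symm ⟨y, hy⟩)
      rw [e.apply_symm_apply] at h1
      exact h1
  refine ⟨g, hg, hmap, ?_, ?_⟩
  · rw [transf_map_orth g hg W, hmap]
  · intro X w
    have h1 : (Submodule.span F {w}).map (g : V →ₗ[F] V)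
        = Submodule.span F {(g : V →ₗ[F] V) w} := by
      rw [Submodule.map_span, Set.image_singleton]
    have h3 : (X ⊓ B.orthogonal (Submodule.span F {w})).map (g : V →ₗ[F] V)
        = X.map (g : V →ₗ[F] V) ⊓ B.orthogonal (Submodule.span F {(g : V →ₗ[F] V) w}) := by
      rw [Submodule.map_inf (g : V →ₗ[F] V)
        (show Function.Injective (g : V →ₗ[F] V) from g.injective), transf_map_orth g hg, h1]
    exact h3

end Cfsg.Agent.Lib.Helper11.Pm
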