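import Cfsg.Agent.S5357

set_option autoImplicit false
open Cfsg

namespace Cfsg.Agent.Lib.Helper11

open Matrix

theorem r3_three : (3 : ZMod 3) = 0 := by decide

theorem r3_sq : ∀ c : ZMod 3, c ≠ 0 → c * c = 1 := by decide

theorem r3_two : ∀ c : ZMod 3, c ≠ 0 → c + c ≠ 0 := by decide

theorem r3_perp_self : ∀ c ε : ZMod 3, c ≠ 0 → ε + c * ε * (c + c) = 0 := by decide

theorem r3_norm_neg : ∀ c ε δ : ZMod 3, c ≠ 0 → ε ≠ 0 → δ ≠ 0 →
    c + (c * ε) * (c * ε) * c + (c * ε) * ε + (c * δ) * (c * δ) * c + (c * δ) * δ = -c := by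
  decide

theorem r3_norm_pos : ∀ c ε : ZMod 3, c ≠ 0 → ε ≠ 0 →
    c + (c * ε) * (c * ε) * c + (c * ε) * ε + c = c := by
  decide

theorem r3_E3_num : ∀ q φ ψ ε c a β : ZMod 3, c ≠ 0 → ε ≠ 0 → ψ + c * ε * φ ≠ 0 →
    a = (ψ + c * ε * φ) * (c - (q - c * φ * φ)) → β = c * φ + a * c * ε →
    (q + β * β * c + a * a * c + β * φ + a * ψ + β * a * ε = c ∧
      φ + β * (c + c) + a * ε = 0 ∧ ψ + β * ε + a * (c + c) ≠ 0) := by
  decide

/-- An elementary representation lemma: a "quadratic" function on `𝔽₃ⁿ`, `n ≥ 5`, whose polar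
form has radical inside a span of three vectors takes every non-zero value. -/
theorem r3_exists_value {n : ℕ} (hn : 5 ≤ n) (Q' : (Fin n → ZMod 3) → ZMod 3)
    (f' : (Fin n → ZMod 3) → (Fin n → ZMod 3) → ZMod 3)
    (hadd : ∀ t s, Q' (t + s) = Q' t + Q' s + f' t s)
    (hsub : ∀ t s, Q' (t - s) = Q' t + Q' s - f' t s)
    (e₁ e₂ e₃ : Fin n → ZMod 3)
    (hrad : ∀ t, (∀ s, f' t s = 0) → ∃ α β γ : ZMod 3, t = α • e₁ + β • e₂ + γ • e₃)
    (d : ZMod 3) (hd : d ≠ 0) : ∃ t, Q' t = d := by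
  by_contra hcon
  push Not at hcon
  have h0 : ∀ t, Q' t = 0 → ∀ s, f' t s = 0 := by
    intro t ht s
    have h3 := hcon (t + s)
    have h4 := hcon (t - s)
    rw [hadd, ht] at h3
    rw [hsub, ht] at h4
    exact Cfsg.Agent.Lib.Helper91.z3_i d (Q' s) (f' t s) hd (hcon s) h3 h4
  obtain ⟨t₀, ht₀⟩ : ∃ t₀, ∀ t, ∃ e α β γ : ZMod 3,
      t = e • t₀ + (α • e₁ + β • e₂ + γ • e₃) := by
    by_cases hex : ∃ t₀, Q' t₀ ≠ 0
    · obtain ⟨t₀, ht₀⟩ := hex
      refine ⟨t₀, fun t => ?_⟩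
      by_cases ht : Q' t = 0
      · obtain ⟨α, β, γ, h⟩ := hrad t (h0 t ht)
        exact ⟨0, α, β, γ, by rw [zero_smul, zero_add]; exact h⟩
      · have h3 := hcon (t + t₀)
        have h4 := hcon (t - t₀)
        rw [hadd] at h3
        rw [hsub] at h4
        have key := Cfsg.Agent.Lib.Helper91.z3_key d (Q' t) (Q' t₀) (f' t t₀) hd ht (hcon t)
          ht₀ (hcon t₀) h3 h4
        rw [← hadd, ← hsub] at key
        rcases key with h | h
        · obtain ⟨α, β, γ, hh⟩ := hrad _ (h0 _ h)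
          refine ⟨-1, α, β, γ, ?_⟩
          rw [neg_one_smul, ← hh]
          abel
        · obtain ⟨α, β, γ, hh⟩ := hrad _ (h0 _ h)
          refine ⟨1, α, β, γ, ?_⟩
          rw [one_smul, ← hh]
          abel
    · push Not at hex
      refine ⟨0, fun t => ?_⟩
      obtain ⟨α, β, γ, h⟩ := hrad t (h0 t (hex t))
      exact ⟨0, α, β, γ, by rw [zero_smul, zero_add]; exact h⟩
  have hsurj : Function.Surjective
      (fun x : ZMod 3 × ZMod 3 × ZMod 3 × ZMod 3 =>
        x.1 • t₀ + (x.2.1 • e₁ + x.2.2.1 • e₂ + x.2.2.2 • e₃)) := by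
    intro t
    obtain ⟨e, α, β, γ, h⟩ := ht₀ t
    exact ⟨(e, α, β, γ), h.symm⟩
  have hcard := Fintype.card_le_of_surjective _ hsurj
  simp only [Fintype.card_pi, Finset.prod_const, Finset.card_univ, Fintype.card_fin,
    Fintype.card_prod, ZMod.card] at hcard
  have : 3 ^ 5 ≤ 3 ^ n := Nat.pow_le_pow_right (by norm_num) hn
  omega

section Form

variable {n : ℕ} (Q : QuadraticForm (ZMod 3) (Fin n → ZMod 3))

/-- a vector of any prescribed non-zero norm orthogonal to a given non-singular vector -/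
theorem r3_perp1 (hn : 4 ≤ n) (hQ : (QuadraticMap.polarBilin Q).Nondegenerate)
    (v : Fin n → ZMod 3) (c : ZMod 3) (hv : Q v = c) (hc : c ≠ 0) (d : ZMod 3) (hd : d ≠ 0) :
    ∃ y, Q y = d ∧ QuadraticMap.polar (⇑Q) v y = 0 := by
  have h3 := r3_three
  have hcc := r3_sq c hc
  obtain ⟨t, ht⟩ := Cfsg.Agent.Lib.Helper91.exists_value hn
    (fun t => Q t - c * (QuadraticMap.polar (⇑Q) t v * QuadraticMap.polar (⇑Q) t v))
    (fun t s => QuadraticMap.polar (⇑Q) t s +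
      c * (QuadraticMap.polar (⇑Q) t v * QuadraticMap.polar (⇑Q) s v))
    (by
      intro t s
      show Q (t + s) - c * (QuadraticMap.polar (⇑Q) (t + s) v *
        QuadraticMap.polar (⇑Q) (t + s) v) = _
      rw [QuadraticMap.map_add (⇑Q) t s, QuadraticMap.polar_add_left]
      linear_combination (-(c * (QuadraticMap.polar (⇑Q) t v *
        QuadraticMap.polar (⇑Q) s v))) * h3)
    (by
      intro t s
      show Q (t - s) - c * (QuadraticMap.polar (⇑Q) (t - s) v *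
        QuadraticMap.polar (⇑Q) (t - s) v) = _
      have hsub : Q (t - s) = Q t + Q s - QuadraticMap.polar (⇑Q) t s := by
        rw [sub_eq_add_neg, QuadraticMap.map_add (⇑Q) t (-s), QuadraticMap.map_neg,
          QuadraticMap.polar_neg_right]
        ring
      rw [hsub, QuadraticMap.polar_sub_left]
      linear_combination (c * (QuadraticMap.polar (⇑Q) t v *
        QuadraticMap.polar (⇑Q) s v)) * h3)
    v 0
    (by
      intro t ht
      have h0 : t + (c * QuadraticMap.polar (⇑Q) t v) • v = 0 := by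
        apply hQ.1
        intro s
        have := ht s
        show QuadraticMap.polar (⇑Q) _ s = 0
        rw [QuadraticMap.polar_add_left, QuadraticMap.polar_smul_left,
          QuadraticMap.polar_comm (⇑Q) v s, smul_eq_mul]
        linear_combination this
      refine ⟨-(c * QuadraticMap.polar (⇑Q) t v), 0, ?_⟩
      rw [neg_smul, smul_zero, add_zero]
      exact eq_neg_of_add_eq_zero_left h0)
    d hd
  obtain ⟨a, ha⟩ : ∃ a, a = QuadraticMap.polar (⇑Q) t v := ⟨_, rfl⟩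
  rw [← ha] at ht
  refine ⟨t + (c * a) • v, ?_, ?_⟩
  · have : Q (t + (c * a) • v) = Q t + (c * a) * (c * a) * c + (c * a) * a := by
      simp only [QuadraticMap.map_add (⇑Q), QuadraticMap.map_smul, QuadraticMap.polar_smul_right,
        smul_eq_mul, hv, ← ha]
    rw [this]
    linear_combination ht + (c * a * a) * h3 + (c * a * a) * hcc
  · have : QuadraticMap.polar (⇑Q) v (t + (c * a) • v) = a + (c * a) * (c + c) := by
      simp only [QuadraticMap.polar_add_right, QuadraticMap.polar_smul_right,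
        QuadraticMap.polar_self, QuadraticMap.polar_comm (⇑Q) v t, smul_eq_mul, two_nsmul, hv,
        ← ha]
    rw [this]
    linear_combination a * h3 + (2 * a) * hcc

/-- a vector of any prescribed non-zero norm orthogonal to three pairwise orthogonal
non-singular vectors -/
theorem r3_perp3 (hn : 5 ≤ n) (hQ : (QuadraticMap.polarBilin Q).Nondegenerate)
    (e₁ e₂ e₃ : Fin n → ZMod 3) (c₁ c₂ c₃ : ZMod 3) (h₁ : Q e₁ = c₁) (h₂ : Q e₂ = c₂)
    (h₃ : Q e₃ = c₃) (hc₁ : c₁ ≠ 0) (hc₂ : c₂ ≠ 0) (hc₃ : c₃ ≠ 0)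
    (h₁₂ : QuadraticMap.polar (⇑Q) e₁ e₂ = 0) (h₁₃ : QuadraticMap.polar (⇑Q) e₁ e₃ = 0)
    (h₂₃ : QuadraticMap.polar (⇑Q) e₂ e₃ = 0) (d : ZMod 3) (hd : d ≠ 0) :
    ∃ s, Q s = d ∧ QuadraticMap.polar (⇑Q) e₁ s = 0 ∧ QuadraticMap.polar (⇑Q) e₂ s = 0 ∧
      QuadraticMap.polar (⇑Q) e₃ s = 0 := by
  have h3 := r3_three
  have hs₁ := r3_sq c₁ hc₁
  have hs₂ := r3_sq c₂ hc₂
  have hs₃ := r3_sq c₃ hc₃
  have h₂₁ : QuadraticMap.polar (⇑Q) e₂ e₁ = 0 := by rw [QuadraticMap.polar_comm]; exact h₁₂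
  have h₃₁ : QuadraticMap.polar (⇑Q) e₃ e₁ = 0 := by rw [QuadraticMap.polar_comm]; exact h₁₃
  have h₃₂ : QuadraticMap.polar (⇑Q) e₃ e₂ = 0 := by rw [QuadraticMap.polar_comm]; exact h₂₃
  obtain ⟨t, ht⟩ := r3_exists_value hn
    (fun t => Q t - (c₁ * (QuadraticMap.polar (⇑Q) t e₁ * QuadraticMap.polar (⇑Q) t e₁) +
      c₂ * (QuadraticMap.polar (⇑Q) t e₂ * QuadraticMap.polar (⇑Q) t e₂) +
      c₃ * (QuadraticMap.polar (⇑Q) t e₃ * QuadraticMap.polar (⇑Q) t e₃)))
    (fun t s => QuadraticMap.polar (⇑Q) t s +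
      (c₁ * (QuadraticMap.polar (⇑Q) t e₁ * QuadraticMap.polar (⇑Q) s e₁) +
      c₂ * (QuadraticMap.polar (⇑Q) t e₂ * QuadraticMap.polar (⇑Q) s e₂) +
      c₃ * (QuadraticMap.polar (⇑Q) t e₃ * QuadraticMap.polar (⇑Q) s e₃)))
    (by
      intro t s
      show Q (t + s) - (c₁ * (QuadraticMap.polar (⇑Q) (t + s) e₁ *
          QuadraticMap.polar (⇑Q) (t + s) e₁) +
        c₂ * (QuadraticMap.polar (⇑Q) (t + s) e₂ * QuadraticMap.polar (⇑Q) (t + s) e₂) +
        c₃ * (QuadraticMap.polar (⇑Q) (t + s) e₃ * QuadraticMap.polar (⇑Q) (t + s) e₃)) = _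
      rw [QuadraticMap.map_add (⇑Q) t s, QuadraticMap.polar_add_left,
        QuadraticMap.polar_add_left, QuadraticMap.polar_add_left]
      linear_combination (-(c₁ * (QuadraticMap.polar (⇑Q) t e₁ * QuadraticMap.polar (⇑Q) s e₁) +
        c₂ * (QuadraticMap.polar (⇑Q) t e₂ * QuadraticMap.polar (⇑Q) s e₂) +
        c₃ * (QuadraticMap.polar (⇑Q) t e₃ * QuadraticMap.polar (⇑Q) s e₃))) * h3)
    (by
      intro t s
      show Q (t - s) - (c₁ * (QuadraticMap.polar (⇑Q) (t - s) e₁ *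
          QuadraticMap.polar (⇑Q) (t - s) e₁) +
        c₂ * (QuadraticMap.polar (⇑Q) (t - s) e₂ * QuadraticMap.polar (⇑Q) (t - s) e₂) +
        c₃ * (QuadraticMap.polar (⇑Q) (t - s) e₃ * QuadraticMap.polar (⇑Q) (t - s) e₃)) = _
      have hsub : Q (t - s) = Q t + Q s - QuadraticMap.polar (⇑Q) t s := by
        rw [sub_eq_add_neg, QuadraticMap.map_add (⇑Q) t (-s), QuadraticMap.map_neg,
          QuadraticMap.polar_neg_right]
        ring
      rw [hsub, QuadraticMap.polar_sub_left, QuadraticMap.polar_sub_left,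
        QuadraticMap.polar_sub_left]
      linear_combination (c₁ * (QuadraticMap.polar (⇑Q) t e₁ * QuadraticMap.polar (⇑Q) s e₁) +
        c₂ * (QuadraticMap.polar (⇑Q) t e₂ * QuadraticMap.polar (⇑Q) s e₂) +
        c₃ * (QuadraticMap.polar (⇑Q) t e₃ * QuadraticMap.polar (⇑Q) s e₃)) * h3)
    e₁ e₂ e₃
    (by
      intro t ht
      have h0 : t + (c₁ * QuadraticMap.polar (⇑Q) t e₁) • e₁ +
          (c₂ * QuadraticMap.polar (⇑Q) t e₂) • e₂ +
          (c₃ * QuadraticMap.polar (⇑Q) t e₃) • e₃ = 0 := by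
        apply hQ.1
        intro s
        have := ht s
        show QuadraticMap.polar (⇑Q) _ s = 0
        rw [QuadraticMap.polar_add_left, QuadraticMap.polar_add_left,
          QuadraticMap.polar_add_left, QuadraticMap.polar_smul_left,
          QuadraticMap.polar_smul_left, QuadraticMap.polar_smul_left,
          QuadraticMap.polar_comm (⇑Q) e₁ s, QuadraticMap.polar_comm (⇑Q) e₂ s,
          QuadraticMap.polar_comm (⇑Q) e₃ s, smul_eq_mul, smul_eq_mul, smul_eq_mul]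
        linear_combination this
      refine ⟨-(c₁ * QuadraticMap.polar (⇑Q) t e₁), -(c₂ * QuadraticMap.polar (⇑Q) t e₂),
        -(c₃ * QuadraticMap.polar (⇑Q) t e₃), ?_⟩
      rw [neg_smul, neg_smul, neg_smul]
      calc t = (t + (c₁ * QuadraticMap.polar (⇑Q) t e₁) • e₁ +
            (c₂ * QuadraticMap.polar (⇑Q) t e₂) • e₂ +
            (c₃ * QuadraticMap.polar (⇑Q) t e₃) • e₃) -
            (c₁ * QuadraticMap.polar (⇑Q) t e₁) • e₁ -
            (c₂ * QuadraticMap.polar (⇑Q) t e₂) • e₂ -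
            (c₃ * QuadraticMap.polar (⇑Q) t e₃) • e₃ := by abel
        _ = 0 - (c₁ * QuadraticMap.polar (⇑Q) t e₁) • e₁ -
            (c₂ * QuadraticMap.polar (⇑Q) t e₂) • e₂ -
            (c₃ * QuadraticMap.polar (⇑Q) t e₃) • e₃ := by rw [h0]
        _ = _ := by abel)
    d hd
  obtain ⟨a₁, ha₁⟩ : ∃ a, a = QuadraticMap.polar (⇑Q) t e₁ := ⟨_, rfl⟩
  obtain ⟨a₂, ha₂⟩ : ∃ a, a = QuadraticMap.polar (⇑Q) t e₂ := ⟨_, rfl⟩
  obtain ⟨a₃, ha₃⟩ : ∃ a, a = QuadraticMap.polar (⇑Q) t e₃ := ⟨_, rfl⟩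
  rw [← ha₁, ← ha₂, ← ha₃] at ht
  refine ⟨t + (c₁ * a₁) • e₁ + (c₂ * a₂) • e₂ + (c₃ * a₃) • e₃, ?_, ?_, ?_, ?_⟩
  · have : Q (t + (c₁ * a₁) • e₁ + (c₂ * a₂) • e₂ + (c₃ * a₃) • e₃) =
        Q t + (c₁ * a₁) * (c₁ * a₁) * c₁ + (c₁ * a₁) * a₁ + (c₂ * a₂) * (c₂ * a₂) * c₂ +
          (c₂ * a₂) * a₂ + (c₃ * a₃) * (c₃ * a₃) * c₃ + (c₃ * a₃) * a₃ := by
      simp only [QuadraticMap.map_add (⇑Q), QuadraticMap.map_smul, QuadraticMap.polar_smul_right,
        QuadraticMap.polar_smul_left, QuadraticMap.polar_add_left,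
        smul_eq_mul, h₁, h₂, h₃, h₁₂, h₁₃, h₂₃, ← ha₁, ← ha₂, ← ha₃]
      ring
    rw [this]
    linear_combination ht + (c₁ * a₁ * a₁ + c₂ * a₂ * a₂ + c₃ * a₃ * a₃) * h3 +
      (c₁ * a₁ * a₁) * hs₁ + (c₂ * a₂ * a₂) * hs₂ + (c₃ * a₃ * a₃) * hs₃
  · have : QuadraticMap.polar (⇑Q) e₁ (t + (c₁ * a₁) • e₁ + (c₂ * a₂) • e₂ + (c₃ * a₃) • e₃) =
        a₁ + (c₁ * a₁) * (c₁ + c₁) := by
      simp only [QuadraticMap.polar_add_right, QuadraticMap.polar_smul_right,
        QuadraticMap.polar_self, QuadraticMap.polar_comm (⇑Q) e₁ t, smul_eq_mul, two_nsmul, h₁,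
        h₁₂, h₁₃, ← ha₁]
      ring
    rw [this]
    linear_combination a₁ * h3 + (2 * a₁) * hs₁
  · have : QuadraticMap.polar (⇑Q) e₂ (t + (c₁ * a₁) • e₁ + (c₂ * a₂) • e₂ + (c₃ * a₃) • e₃) =
        a₂ + (c₂ * a₂) * (c₂ + c₂) := by
      simp only [QuadraticMap.polar_add_right, QuadraticMap.polar_smul_right,
        QuadraticMap.polar_self, QuadraticMap.polar_comm (⇑Q) e₂ t, smul_eq_mul, two_nsmul, h₂,
        h₂₁, h₂₃, ← ha₂]
      ring
    rw [this]
    linear_combination a₂ * h3 + (2 * a₂) * hs₂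
  · have : QuadraticMap.polar (⇑Q) e₃ (t + (c₁ * a₁) • e₁ + (c₂ * a₂) • e₂ + (c₃ * a₃) • e₃) =
        a₃ + (c₃ * a₃) * (c₃ + c₃) := by
      simp only [QuadraticMap.polar_add_right, QuadraticMap.polar_smul_right,
        QuadraticMap.polar_self, QuadraticMap.polar_comm (⇑Q) e₃ t, smul_eq_mul, two_nsmul, h₃,
        h₃₁, h₃₂, ← ha₃]
      ring
    rw [this]
    linear_combination a₃ * h3 + (2 * a₃) * hs₃

/-- two non-orthogonal, non-proportional centres of norm `c`: a third centre orthogonal to the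
first but not to the second -/
theorem r3_E3 (hQ : (QuadraticMap.polarBilin Q).Nondegenerate) (c : ZMod 3) (hc : c ≠ 0)
    (v w : Fin n → ZMod 3) (hv : Q v = c) (hw : Q w = c)
    (hvw : QuadraticMap.polar (⇑Q) v w ≠ 0)
    (hne : w + (c * QuadraticMap.polar (⇑Q) v w) • v ≠ 0) :
    ∃ u, Q u = c ∧ QuadraticMap.polar (⇑Q) v u = 0 ∧ QuadraticMap.polar (⇑Q) w u ≠ 0 := by
  obtain ⟨y₀, hy₀⟩ : ∃ y₀, QuadraticMap.polar (⇑Q)
      (w + (c * QuadraticMap.polar (⇑Q) v w) • v) y₀ ≠ 0 := by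
    by_contra hcon
    push Not at hcon
    exact hne (hQ.1 _ hcon)
  obtain ⟨ε, hε⟩ : ∃ ε, ε = QuadraticMap.polar (⇑Q) v w := ⟨_, rfl⟩
  obtain ⟨φ, hφ⟩ : ∃ φ, φ = QuadraticMap.polar (⇑Q) v y₀ := ⟨_, rfl⟩
  obtain ⟨ψ, hψ⟩ : ∃ ψ, ψ = QuadraticMap.polar (⇑Q) w y₀ := ⟨_, rfl⟩
  obtain ⟨q, hq⟩ : ∃ q, q = Q y₀ := ⟨_, rfl⟩
  rw [← hε] at hvw hy₀
  have hwv : QuadraticMap.polar (⇑Q) w v = ε := by rw [QuadraticMap.polar_comm]; exact hε.symm
  have hδ : ψ + c * ε * φ ≠ 0 := by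
    intro h0
    apply hy₀
    rw [QuadraticMap.polar_add_left, QuadraticMap.polar_smul_left, smul_eq_mul, ← hφ, ← hψ]
    exact h0
  obtain ⟨a, ha⟩ : ∃ a, a = (ψ + c * ε * φ) * (c - (q - c * φ * φ)) := ⟨_, rfl⟩
  obtain ⟨β, hβ⟩ : ∃ β, β = c * φ + a * c * ε := ⟨_, rfl⟩
  obtain ⟨e1, e2, e3⟩ := r3_E3_num q φ ψ ε c a β hc hvw hδ ha hβ
  refine ⟨y₀ + β • v + a • w, ?_, ?_, ?_⟩
  · have : Q (y₀ + β • v + a • w) =
        q + β * β * c + a * a * c + β * φ + a * ψ + β * a * ε := by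
      simp only [QuadraticMap.map_add (⇑Q), QuadraticMap.map_smul, QuadraticMap.polar_smul_right,
        QuadraticMap.polar_smul_left, QuadraticMap.polar_add_left,
        QuadraticMap.polar_comm (⇑Q) y₀ v, QuadraticMap.polar_comm (⇑Q) y₀ w,
        smul_eq_mul, hv, hw, ← hε, ← hφ, ← hψ, ← hq]
      ring
    rw [this]
    exact e1
  · have : QuadraticMap.polar (⇑Q) v (y₀ + β • v + a • w) = φ + β * (c + c) + a * ε := by
      simp only [QuadraticMap.polar_add_right, QuadraticMap.polar_smul_right,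
        QuadraticMap.polar_self, smul_eq_mul, two_nsmul, hv, ← hε, ← hφ]
    rw [this]
    exact e2
  · have : QuadraticMap.polar (⇑Q) w (y₀ + β • v + a • w) = ψ + β * ε + a * (c + c) := by
      simp only [QuadraticMap.polar_add_right, QuadraticMap.polar_smul_right,
        QuadraticMap.polar_self, smul_eq_mul, two_nsmul, hw, hwv, ← hψ]
    rw [this]
    exact e3

/-- two non-orthogonal, non-proportional centres of norm `c` have a common orthogonal centre
of norm `c` -/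
theorem r3_C (hn : 5 ≤ n) (hQ : (QuadraticMap.polarBilin Q).Nondegenerate) (c : ZMod 3)
    (hc : c ≠ 0) (v w : Fin n → ZMod 3) (hv : Q v = c) (hw : Q w = c)
    (hvw : QuadraticMap.polar (⇑Q) v w ≠ 0)
    (hne : w + (c * QuadraticMap.polar (⇑Q) v w) • v ≠ 0) :
    ∃ s, Q s = c ∧ QuadraticMap.polar (⇑Q) v s = 0 ∧ QuadraticMap.polar (⇑Q) w s = 0 := by
  obtain ⟨u, hu, hvu, hwu⟩ := r3_E3 Q hQ c hc v w hv hw hvw hne
  obtain ⟨ε, hε⟩ : ∃ ε, ε = QuadraticMap.polar (⇑Q) v w := ⟨_, rfl⟩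
  obtain ⟨δ, hδ⟩ : ∃ δ, δ = QuadraticMap.polar (⇑Q) w u := ⟨_, rfl⟩
  rw [← hε] at hvw
  rw [← hδ] at hwu
  have hwv : QuadraticMap.polar (⇑Q) w v = ε := by rw [QuadraticMap.polar_comm]; exact hε.symm
  have huw : QuadraticMap.polar (⇑Q) u w = δ := by rw [QuadraticMap.polar_comm]; exact hδ.symm
  have huv : QuadraticMap.polar (⇑Q) u v = 0 := by rw [QuadraticMap.polar_comm]; exact hvu
  have hn1 : Q (w + (c * ε) • v + (c * δ) • u) = -c := by
    have : Q (w + (c * ε) • v + (c * δ) • u) =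
        c + (c * ε) * (c * ε) * c + (c * ε) * ε + (c * δ) * (c * δ) * c + (c * δ) * δ := by
      simp only [QuadraticMap.map_add (⇑Q), QuadraticMap.map_smul, QuadraticMap.polar_smul_right,
        QuadraticMap.polar_smul_left, QuadraticMap.polar_add_left,
        smul_eq_mul, hv, hw, hu, hwv, hvu, ← hδ]
      ring
    rw [this]
    exact r3_norm_neg c ε δ hc hvw hwu
  have hp1 : QuadraticMap.polar (⇑Q) v (w + (c * ε) • v + (c * δ) • u) = 0 := by
    have : QuadraticMap.polar (⇑Q) v (w + (c * ε) • v + (c * δ) • u) = ε + c * ε * (c + c) := by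
      simp only [QuadraticMap.polar_add_right, QuadraticMap.polar_smul_right,
        QuadraticMap.polar_self, smul_eq_mul, two_nsmul, hv, hvu, ← hε]
      ring
    rw [this]
    exact r3_perp_self c ε hc
  have hp2 : QuadraticMap.polar (⇑Q) u (w + (c * ε) • v + (c * δ) • u) = 0 := by
    have : QuadraticMap.polar (⇑Q) u (w + (c * ε) • v + (c * δ) • u) = δ + c * δ * (c + c) := by
      simp only [QuadraticMap.polar_add_right, QuadraticMap.polar_smul_right,
        QuadraticMap.polar_self, smul_eq_mul, two_nsmul, hu, huv, huw]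
      ring
    rw [this]
    exact r3_perp_self c δ hc
  obtain ⟨s, hs, hs1, hs2, hs3⟩ := r3_perp3 Q hn hQ v u (w + (c * ε) • v + (c * δ) • u) c c (-c)
    hv hu hn1 hc hc (neg_ne_zero.mpr hc) hvu hp1 hp2 c hc
  refine ⟨s, hs, hs1, ?_⟩
  simp only [QuadraticMap.polar_add_left, QuadraticMap.polar_smul_left, smul_eq_mul, hs1, hs2,
    mul_zero, add_zero] at hs3
  exact hs3

/-- two orthogonal centres of norm `c`: a third centre orthogonal to the first, not orthogonal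
to the second, and with reflection different from the second one's (witnessed by `s`) -/
theorem r3_E1 (hn : 5 ≤ n) (hQ : (QuadraticMap.polarBilin Q).Nondegenerate) (c : ZMod 3)
    (hc : c ≠ 0) (v w : Fin n → ZMod 3) (hv : Q v = c) (hw : Q w = c)
    (hvw : QuadraticMap.polar (⇑Q) v w = 0) :
    ∃ u s, Q u = c ∧ QuadraticMap.polar (⇑Q) v u = 0 ∧ QuadraticMap.polar (⇑Q) w u ≠ 0 ∧
      QuadraticMap.polar (⇑Q) w s = 0 ∧ QuadraticMap.polar (⇑Q) u s ≠ 0 := by
  obtain ⟨u₀, hu₀, hvu, hwu⟩ := Cfsg.Agent.S5357.exists_link (by omega) Q hQ c hc v w hv hw hvw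
  obtain ⟨ε, hε⟩ : ∃ ε, ε = QuadraticMap.polar (⇑Q) v u₀ := ⟨_, rfl⟩
  obtain ⟨δ, hδ⟩ : ∃ δ, δ = QuadraticMap.polar (⇑Q) w u₀ := ⟨_, rfl⟩
  rw [← hε] at hvu
  rw [← hδ] at hwu
  have hwv : QuadraticMap.polar (⇑Q) w v = 0 := by rw [QuadraticMap.polar_comm]; exact hvw
  have huv : QuadraticMap.polar (⇑Q) u₀ v = ε := by rw [QuadraticMap.polar_comm]; exact hε.symm
  have huw : QuadraticMap.polar (⇑Q) u₀ w = δ := by rw [QuadraticMap.polar_comm]; exact hδ.symm
  have hn1 : Q (u₀ + (c * ε) • v + (c * δ) • w) = -c := by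
    have : Q (u₀ + (c * ε) • v + (c * δ) • w) =
        c + (c * ε) * (c * ε) * c + (c * ε) * ε + (c * δ) * (c * δ) * c + (c * δ) * δ := by
      simp only [QuadraticMap.map_add (⇑Q), QuadraticMap.map_smul, QuadraticMap.polar_smul_right,
        QuadraticMap.polar_smul_left, QuadraticMap.polar_add_left,
        smul_eq_mul, hv, hw, hu₀, huv, huw, hvw]
      ring
    rw [this]
    exact r3_norm_neg c ε δ hc hvu hwu
  have hp1 : QuadraticMap.polar (⇑Q) v (u₀ + (c * ε) • v + (c * δ) • w) = 0 := by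
    have : QuadraticMap.polar (⇑Q) v (u₀ + (c * ε) • v + (c * δ) • w) = ε + c * ε * (c + c) := by
      simp only [QuadraticMap.polar_add_right, QuadraticMap.polar_smul_right,
        QuadraticMap.polar_self, smul_eq_mul, two_nsmul, hv, hvw, ← hε]
      ring
    rw [this]
    exact r3_perp_self c ε hc
  have hp2 : QuadraticMap.polar (⇑Q) w (u₀ + (c * ε) • v + (c * δ) • w) = 0 := by
    have : QuadraticMap.polar (⇑Q) w (u₀ + (c * ε) • v + (c * δ) • w) = δ + c * δ * (c + c) := by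
      simp only [QuadraticMap.polar_add_right, QuadraticMap.polar_smul_right,
        QuadraticMap.polar_self, smul_eq_mul, two_nsmul, hw, hwv, ← hδ]
      ring
    rw [this]
    exact r3_perp_self c δ hc
  obtain ⟨s, hs, hs1, hs2, hs3⟩ := r3_perp3 Q hn hQ v w (u₀ + (c * ε) • v + (c * δ) • w) c c (-c)
    hv hw hn1 hc hc (neg_ne_zero.mpr hc) hvw hp1 hp2 c hc
  have hus : QuadraticMap.polar (⇑Q) u₀ s = 0 := by
    simp only [QuadraticMap.polar_add_left, QuadraticMap.polar_smul_left, smul_eq_mul, hs1, hs2,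
      mul_zero, add_zero] at hs3
    exact hs3
  refine ⟨u₀ + (c * ε) • v + s, s, ?_, ?_, ?_, hs2, ?_⟩
  · have : Q (u₀ + (c * ε) • v + s) = c + (c * ε) * (c * ε) * c + (c * ε) * ε + c := by
      simp only [QuadraticMap.map_add (⇑Q), QuadraticMap.map_smul, QuadraticMap.polar_smul_right,
        QuadraticMap.polar_smul_left, QuadraticMap.polar_add_left,
        smul_eq_mul, hv, hu₀, hs, huv, hus, hs1]
      ring
    rw [this]
    exact r3_norm_pos c ε hc hvu
  · have : QuadraticMap.polar (⇑Q) v (u₀ + (c * ε) • v + s) = ε + c * ε * (c + c) := by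
      simp only [QuadraticMap.polar_add_right, QuadraticMap.polar_smul_right,
        QuadraticMap.polar_self, smul_eq_mul, two_nsmul, hv, hs1, ← hε]
      ring
    rw [this]
    exact r3_perp_self c ε hc
  · have : QuadraticMap.polar (⇑Q) w (u₀ + (c * ε) • v + s) = δ := by
      simp only [QuadraticMap.polar_add_right, QuadraticMap.polar_smul_right,
        smul_eq_mul, hwv, hs2, ← hδ]
      ring
    rw [this]
    exact hwu
  · have : QuadraticMap.polar (⇑Q) (u₀ + (c * ε) • v + s) s = c + c := by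
      simp only [QuadraticMap.polar_add_left, QuadraticMap.polar_smul_left,
        QuadraticMap.polar_self, smul_eq_mul, two_nsmul, hs, hs1, hus]
      ring
    rw [this]
    exact r3_two c hc

/-- reflections are distinguished by a vector fixed by one and moved by the other -/
theorem r3_refl_ne (u w s : Fin n → ZMod 3) (hu : Q u ≠ 0)
    (hws : QuadraticMap.polar (⇑Q) w s = 0) (hus : QuadraticMap.polar (⇑Q) u s ≠ 0) :
    reflectionMatrix (⇑Q) u ≠ reflectionMatrix (⇑Q) w := by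
  intro h
  have h1 : reflectionMatrix (⇑Q) u *ᵥ s = reflectionMatrix (⇑Q) w *ᵥ s := by rw [h]
  rw [Cfsg.Agent.Lib.Helper91.refl_apply, Cfsg.Agent.Lib.Helper91.refl_apply, hws, mul_zero,
    zero_smul, sub_zero] at h1
  have h2 : ((Q u)⁻¹ * QuadraticMap.polar (⇑Q) u s) • u = 0 := sub_eq_self.mp h1
  rcases smul_eq_zero.mp h2 with h | h
  · exact (mul_ne_zero (inv_ne_zero hu) hus) h
  · rw [h, QuadraticMap.map_zero] at hu
    exact hu rfl

/-- orthogonal centres of norm `c` give different reflections -/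
theorem r3_refl_ne_perp (c : ZMod 3) (hc : c ≠ 0) (v y : Fin n → ZMod 3) (hv : Q v = c)
    (hvy : QuadraticMap.polar (⇑Q) v y = 0) :
    reflectionMatrix (⇑Q) v ≠ reflectionMatrix (⇑Q) y := by
  apply r3_refl_ne Q v y v (by rw [hv]; exact hc)
  · rw [QuadraticMap.polar_comm]; exact hvy
  · rw [QuadraticMap.polar_self, two_nsmul, hv]
    exact r3_two c hc

end Form

end Cfsg.Agent.Lib.Helper11
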