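import Mathlib
import Cfsg.Agent.Lib.Helper52.SP8EBDefs

/-! SP8-EB (sub-project of S5823, architect helper52), piece NRM (helper11):
`G` normalises `R` (from `HRmem` and `HNrmS`). -/

set_option autoImplicit false

namespace Cfsg.Agent.Lib.Helper52.SP8EB

open Matrix Cfsg.Geo Cfsg.Agent.Lib.Helper71.Asch

variable {n : ℕ} {F : Type*} [Field F] [Fintype F]

/-- NRM. -/
theorem NRM (f : (Fin n → F) → (Fin n → F) → F) (e : Fin n ≃ (Fin 3 → Fin 2)) (P : GL (Fin n) F)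
    (hrm : HRmem e P) (hs : HNrmS F) : Nrm (Gsub f e P) (Rsub e P) := by
  intro h hh x hx
  have hh' : h ∈ tensorWreathSubgroup 2 3 e P ⊓ isoSub f := hh
  obtain ⟨s, hsmem, hhs⟩ := (mem_tensorWreathSubgroup_iff e P h).1 (Subgroup.mem_inf.1 hh').1
  obtain ⟨cs, hcs, hxcs⟩ := hrm x hx
  obtain ⟨cs', hcs', hconj⟩ := hs s hsmem cs hcs
  have hinv : (h⁻¹ : GL (Fin n) F).1 = tw e P (s⁻¹ : GL (Fin 3 → Fin 2) F).1 := by
    have h1 : h.1 * tw e P (s⁻¹ : GL (Fin 3 → Fin 2) F).1 = 1 := by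
      rw [hhs, tw_mul, ← Units.val_mul, mul_inv_cancel, Units.val_one, tw_one]
    calc (h⁻¹ : GL (Fin n) F).1
        = (h⁻¹ : GL (Fin n) F).1 * (h.1 * tw e P (s⁻¹ : GL (Fin 3 → Fin 2) F).1) := by
          rw [h1, mul_one]
      _ = ((h⁻¹ : GL (Fin n) F).1 * h.1) * tw e P (s⁻¹ : GL (Fin 3 → Fin 2) F).1 := by
          rw [mul_assoc]
      _ = tw e P (s⁻¹ : GL (Fin 3 → Fin 2) F).1 := by
          rw [← Units.val_mul, inv_mul_cancel, Units.val_one, one_mul]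
  apply Subgroup.subset_closure
  refine ⟨cs', hcs', ?_⟩
  rw [Units.val_mul, Units.val_mul, hhs, hxcs, hinv, tw_mul, tw_mul, hconj]

end Cfsg.Agent.Lib.Helper52.SP8EB
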