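import Mathlib

namespace Cfsg.Agent.S496

open Equiv Equiv.Perm

theorem sign_of_uniform {α : Type*} [Fintype α] [DecidableEq α] (σ : Equiv.Perm α) (m k : ℕ)
    (hm : Even m) (hm0 : 0 < m)
    (hfree : ∀ a, σ a = a ∨ ∀ j, 0 < j → j < m → (σ ^ j) a ≠ a)
    (hpow : ∀ a, (σ ^ m) a = a)
    (hcard : (Finset.univ.filter (fun a => σ a ≠ a)).card = m * k) :
    Equiv.Perm.sign σ = (-1) ^ k := by
  have hσm : σ ^ m = 1 := Equiv.Perm.ext hpow
  have hall : ∀ n ∈ σ.cycleType, n = m := by
    intro n hn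
    have hdvd : n ∣ m :=
      (Equiv.Perm.dvd_of_mem_cycleType hn).trans (orderOf_dvd_of_pow_eq_one hσm)
    have h2 : 2 ≤ n := Equiv.Perm.two_le_of_mem_cycleType hn
    obtain ⟨c, τ, hστ, hdisj, hc, hcn⟩ := Equiv.Perm.mem_cycleType_iff.mp hn
    obtain ⟨a, ha⟩ := hc.nonempty_support
    have hca : c a ≠ a := Equiv.Perm.mem_support.mp ha
    have hτa : τ a = a := by
      rcases hdisj a with h | h
      · exact absurd h hca
      · exact h
    have hσa : σ a ≠ a := by
      rw [hστ, Equiv.Perm.mul_apply, hτa]; exact hca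
    have hcn1 : c ^ n = 1 := by
      rw [← hcn, ← hc.orderOf]; exact pow_orderOf_eq_one c
    have hσn : (σ ^ n) a = a := by
      rw [hστ, hdisj.commute.mul_pow, hcn1, one_mul]
      exact Equiv.Perm.pow_apply_eq_self_of_apply_eq_self hτa n
    rcases hfree a with h | h
    · exact absurd h hσa
    · by_contra hne
      have hle : n ≤ m := Nat.le_of_dvd hm0 hdvd
      exact h n (by omega) (lt_of_le_of_ne hle hne) hσn
  have hrep : σ.cycleType = Multiset.replicate (Multiset.card σ.cycleType) m :=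
    Multiset.eq_replicate.mpr ⟨rfl, hall⟩
  have hsum : σ.cycleType.sum = m * k := by
    rw [Equiv.Perm.sum_cycleType]
    rw [← hcard]
    congr 1
  have hk : Multiset.card σ.cycleType = k := by
    rw [hrep, Multiset.sum_replicate, smul_eq_mul, mul_comm] at hsum
    exact Nat.eq_of_mul_eq_mul_left hm0 hsum
  rw [Equiv.Perm.sign_of_cycleType, hsum, hk, pow_add, pow_mul]
  rw [hm.neg_one_pow, one_pow, one_mul]

end Cfsg.Agent.S496
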