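import Cfsg.Agent.Lib.Helper11.TT56Def
import Cfsg.Agent.S5351
import Cfsg.Agent.Lib.Helper31.Basic

set_option autoImplicit false
open Cfsg

namespace Cfsg.Agent.Lib.Helper11

/-- the powers of an involution -/
theorem tt56_zpowers_two {G : Type*} [Group G] {d : G} (hd2 : d * d = 1) {z : G}
    (hz : z ∈ Subgroup.zpowers d) : z = 1 ∨ z = d := by
  obtain ⟨i, rfl⟩ := Subgroup.mem_zpowers_iff.mp hz
  rcases Int.even_or_odd i with ⟨k, rfl⟩ | ⟨k, rfl⟩
  · left
    rw [← two_mul, zpow_mul, zpow_two, hd2, one_zpow]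
  · right
    rw [zpow_add, zpow_mul, zpow_two, hd2, one_zpow, one_mul, zpow_one]

/-- a subgroup normalized by the involution `d` which together with `d` generates `G`
covers `G` with two cosets -/
theorem tt56_cover {G : Type*} [Group G] {d : G} (hd2 : d * d = 1) (M : Subgroup G)
    (hnorm : ∀ x ∈ M, d * x * d⁻¹ ∈ M) (htop : Subgroup.zpowers d ⊔ M = ⊤) (g : G) :
    g ∈ M ∨ d * g ∈ M := by
  have hdi : d⁻¹ = d := inv_eq_of_mul_eq_one_left hd2
  have hdN : d ∈ Subgroup.normalizer (M : Set G) := by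
    rw [Subgroup.mem_normalizer_iff]
    intro x
    constructor
    · exact hnorm x
    · intro hx
      have := hnorm _ hx
      have e : d * (d * x * d⁻¹) * d⁻¹ = x := by
        rw [hdi]
        calc d * (d * x * d) * d = (d * d) * x * (d * d) := by group
          _ = x := by rw [hd2, one_mul, mul_one]
      rw [e] at this
      exact this
  have hle : Subgroup.zpowers d ≤ Subgroup.normalizer (M : Set G) :=
    Subgroup.zpowers_le.mpr hdN
  have hg : g ∈ ((Subgroup.zpowers d ⊔ M : Subgroup G) : Set G) := by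
    rw [htop]; exact Set.mem_univ g
  rw [Subgroup.coe_mul_of_left_le_normalizer_right _ _ hle] at hg
  obtain ⟨z, hz, m, hm, rfl⟩ := Set.mem_mul.mp hg
  rcases tt56_zpowers_two hd2 hz with rfl | rfl
  · left
    rw [one_mul]; exact hm
  · right
    rw [← mul_assoc, hd2, one_mul]; exact hm

/-- a 3-subgroup normalized by `d` generating `G` together with `d` and the 2-core is a
Sylow 3-subgroup -/
theorem tt56_sylow {G : Type*} [Group G] [Finite G] {d : G} (hd2 : d * d = 1) (P : Subgroup G)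
    (hP : IsPGroup 3 P) (hnorm : ∀ x ∈ P, d * x * d⁻¹ ∈ P)
    (htop : Subgroup.zpowers d ⊔ P ⊔ pCore 2 G = ⊤) : ∃ S : Sylow 3 G, (S : Subgroup G) = P := by
  classical
  haveI : Fact (Nat.Prime 3) := ⟨by norm_num⟩
  haveI : Fact (Nat.Prime 2) := ⟨by norm_num⟩
  haveI hQn : (pCore 2 G).Normal := Cfsg.Agent.S5351.pCore_nrm 2
  have hQ2 : IsPGroup 2 ↥(pCore 2 G) := Cfsg.Agent.Lib.Helper31.pCore_isPGroup 2
  have hMcard : Nat.card ↥(P ⊔ pCore 2 G) ∣ Nat.card ↥P * Nat.card ↥(pCore 2 G) := by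
    have h1 : (pCore 2 G).relIndex (P ⊔ pCore 2 G) = (pCore 2 G).relIndex P :=
      Subgroup.relIndex_sup_right P (pCore 2 G)
    have h2 : (pCore 2 G).relIndex P ∣ Nat.card ↥P := Subgroup.relIndex_dvd_card _ _
    have h3 := Subgroup.relIndex_mul_relIndex (H := ⊥) (K := pCore 2 G) (L := P ⊔ pCore 2 G)
      bot_le le_sup_right
    rw [Subgroup.relIndex_bot_left, Subgroup.relIndex_bot_left, h1] at h3
    rw [← h3, mul_comm]
    exact Nat.mul_dvd_mul_right h2 _
  have hMn : ∀ x ∈ P ⊔ pCore 2 G, d * x * d⁻¹ ∈ P ⊔ pCore 2 G := by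
    intro x hx
    have hx' : x ∈ ((P ⊔ pCore 2 G : Subgroup G) : Set G) := hx
    rw [Subgroup.mul_normal] at hx'
    obtain ⟨p, hp, q, hq, rfl⟩ := Set.mem_mul.mp hx'
    have e : d * (p * q) * d⁻¹ = (d * p * d⁻¹) * (d * q * d⁻¹) := by group
    rw [e]
    exact Subgroup.mul_mem _ (Subgroup.mem_sup_left (hnorm p hp))
      (Subgroup.mem_sup_right (hQn.conj_mem q hq d))
  have htop' : Subgroup.zpowers d ⊔ (P ⊔ pCore 2 G) = ⊤ := by rw [← sup_assoc]; exact htop
  have hcov := tt56_cover hd2 (P ⊔ pCore 2 G) hMn htop'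
  have hidx : (P ⊔ pCore 2 G).index ≤ 2 := by
    rw [Subgroup.index_eq_card]
    have hsurj : Function.Surjective (fun b : Bool =>
        if b then ((1 : G) : G ⧸ (P ⊔ pCore 2 G)) else ((d : G) : G ⧸ (P ⊔ pCore 2 G))) := by
      intro y
      obtain ⟨g, rfl⟩ := QuotientGroup.mk_surjective y
      rcases hcov g with hg | hg
      · refine ⟨true, ?_⟩
        simp only [if_true]
        rw [QuotientGroup.eq]
        simpa using hg
      · refine ⟨false, ?_⟩
        simp only [Bool.false_eq_true, if_false]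
        rw [QuotientGroup.eq]
        have hdi : d⁻¹ = d := inv_eq_of_mul_eq_one_left hd2
        rw [hdi]; exact hg
    have := Nat.card_le_card_of_surjective _ hsurj
    simpa using this
  have hidx0 : (P ⊔ pCore 2 G).index ≠ 0 := Subgroup.index_ne_zero_of_finite
  have hGdvd : Nat.card G ∣ 2 * (Nat.card ↥P * Nat.card ↥(pCore 2 G)) := by
    rw [← Subgroup.index_mul_card (P ⊔ pCore 2 G)]
    have h12 : (P ⊔ pCore 2 G).index ∣ 2 := by
      have : (P ⊔ pCore 2 G).index = 1 ∨ (P ⊔ pCore 2 G).index = 2 := by omega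
      rcases this with h | h <;> rw [h]
      exact one_dvd 2
    exact Nat.mul_dvd_mul h12 hMcard
  obtain ⟨S, hPS⟩ := hP.exists_le_sylow
  obtain ⟨j, hj⟩ := IsPGroup.iff_card.mp S.isPGroup'
  obtain ⟨i, hi⟩ := IsPGroup.iff_card.mp hP
  obtain ⟨a, ha⟩ := IsPGroup.iff_card.mp hQ2
  have hSdvd : Nat.card ↥(S : Subgroup G) ∣ Nat.card G := Subgroup.card_subgroup_dvd_card _
  have h1 : 3 ^ j ∣ 3 ^ i * 2 ^ (a + 1) := by
    have h := hSdvd.trans hGdvd
    rw [hi, ha] at h
    have hj' : Nat.card ↥(S : Subgroup G) = 3 ^ j := hj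
    rw [hj'] at h
    have e : 2 * (3 ^ i * 2 ^ a) = 3 ^ i * 2 ^ (a + 1) := by ring
    rw [e] at h
    exact h
  have hcop : Nat.Coprime (3 ^ j) (2 ^ (a + 1)) := Nat.Coprime.pow _ _ (by norm_num)
  have h2 : 3 ^ j ∣ 3 ^ i := hcop.dvd_of_dvd_mul_right h1
  have hle : Nat.card ↥(S : Subgroup G) ≤ Nat.card ↥P := by
    have hj' : Nat.card ↥(S : Subgroup G) = 3 ^ j := hj
    rw [hj', hi]
    exact Nat.le_of_dvd (by positivity) h2
  refine ⟨S, ?_⟩
  exact (Subgroup.eq_of_le_of_card_ge hPS hle).symm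

end Cfsg.Agent.Lib.Helper11
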